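import Cfsg.Agent.Lib.H20.DefZero
import Cfsg.Agent.Lib.H20.BrIdem
import Cfsg.Agent.Lib.H20.Height
import Cfsg.Agent.Lib.H77.BlkReg

/-!
Groups in which the centralizers of elements of order `p` are `p`-constrained: every block is
principal or of defect zero.
-/

set_option autoImplicit false
set_option linter.style.haveILetI false
open Cfsg

namespace H32.DefZ

open H20.Loc H20.DefZero H20.DefGrp

variable {G : Type*} [Group G] [Finite G] {p : ℕ} {M : Ideal AlgInt}

theorem principal_or_full (hM : IsPModular p M)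
    (hC : ∀ t : G, orderOf t = p → ∃ Q : Subgroup G, IsPGroup p Q ∧ (∀ q ∈ Q, q * t = t * q) ∧
      (∀ c : G, c * t = t * c → ∀ q ∈ Q, c * q * c⁻¹ ∈ Q) ∧
      ∀ c : G, c * t = t * c → (∀ q ∈ Q, q * c = c * q) → ¬ p ∣ orderOf c → c = 1)
    (χ : IrrCharacter G) : χ ∈ principalBlock M G ∨
      (charDegree (χ : G → ℂ)).factorization p = (Nat.card G).factorization p := by
  haveI := pm_isPrime hM
  haveI : Fact p.Prime := ⟨pm_prime hM⟩
  have hB : IsPBlock M (blockOf M (χ : G → ℂ)) := ⟨χ, rfl⟩
  obtain ⟨D, hD⟩ := exists_isDefectGroup hM hB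
  have hcard := H20.Defect.card_defectGroup hM hB hD
  by_cases hD1 : D = ⊥
  · right
    rw [hD1, Subgroup.card_bot] at hcard
    have h0 : blockDefect p (blockOf M (χ : G → ℂ)) = 0 := by
      by_contra h
      exact (Nat.one_lt_pow h (pm_prime hM).one_lt).ne hcard
    exact (blockDefect_eq_zero_iff hM hB (H20.Blk.mem_blockOf_self χ)).1 h0
  left
  have hDp : IsPGroup p D := isPGroup_of_isDefectGroup hD
  -- an element of order p in D
  have hpd : p ∣ Nat.card D := by
    rw [hcard]
    apply dvd_pow_self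
    intro h0
    rw [h0, pow_zero] at hcard
    exact hD1 (Subgroup.card_eq_one.1 hcard)
  obtain ⟨t', ht'⟩ := exists_prime_orderOf_dvd_card' p hpd
  obtain ⟨t, htD⟩ := t'
  rw [Subgroup.orderOf_mk] at ht'
  obtain ⟨Q, hQp, hQt, hQn, hQc⟩ := hC t ht'
  set H := Subgroup.centralizer ({t} : Set G) with hH
  have hmemH : ∀ c : G, c ∈ H ↔ c * t = t * c := fun c => by
    rw [hH, Subgroup.mem_centralizer_singleton_iff]
  have hQH : Q ≤ H := fun q hq => (hmemH q).2 (hQt q hq)
  set P := Subgroup.zpowers t with hP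
  have hPp : IsPGroup p P := IsPGroup.of_card (n := 1) (by rw [hP, Nat.card_zpowers, ht', pow_one])
  have hCP : Subgroup.centralizer (P : Set G) = H := by
    rw [hP, hH]
    ext c
    rw [Subgroup.mem_centralizer_iff, Subgroup.mem_centralizer_singleton_iff]
    constructor
    · intro h
      exact (h t (Subgroup.mem_zpowers t)).symm
    · rintro h _ ⟨k, rfl⟩
      exact ((show Commute c t from h).zpow_right k).eq.symm
  have hPH : P ⊔ Subgroup.centralizer (P : Set G) ≤ H := by
    rw [hCP]
    refine sup_le ?_ le_rfl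
    rw [hP, Subgroup.zpowers_le]
    exact (hmemH t).2 rfl
  have hHN : H ≤ Subgroup.normalizer (P : Set G) := by
    rw [← hCP]
    exact Subgroup.centralizer_le_normalizer _
  obtain ⟨b, hb⟩ := (H20.BrIdem.exists_induced_iff hM hPp hPH hHN hB).2 ⟨D, hD, 1, by
    simp only [map_one]
    intro y hy
    obtain ⟨z, hz, rfl⟩ := hy
    obtain ⟨k, rfl⟩ := hz
    exact D.zpow_mem htD k⟩
  -- H has a single block
  have hsingle : ∀ φ ψ : IrrCharacter H, SameBlock M (φ : H → ℂ) (ψ : H → ℂ) := by
    haveI : (Q.subgroupOf H).Normal := by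
      constructor
      rintro ⟨q, hq1⟩ hq2 ⟨c, hc⟩
      exact hQn c ((hmemH c).1 hc) q hq2
    refine H77.BlkReg.single_block hM (Q.subgroupOf H)
      (hQp.of_injective (Subgroup.subgroupOfEquivOfLe hQH).toMonoidHom
        (Subgroup.subgroupOfEquivOfLe hQH).injective) ?_
    rintro ⟨c, hc⟩ hcc hr
    rw [Subgroup.orderOf_mk] at hr
    apply Subtype.ext
    refine hQc c ((hmemH c).1 hc) (fun q hq => ?_) hr
    exact congrArg (fun x : H => (x : G)) (Subgroup.mem_centralizer_iff.1 hcc ⟨q, hQH hq⟩ hq)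
  have hbp : b = principalBlock M H := by
    obtain ⟨φ, rfl⟩ := hb.1
    ext ψ
    constructor
    · intro _
      exact hsingle ⟨_, H18.CharBasic.isIrrCharacter_one⟩ ψ
    · intro _
      exact hsingle φ ψ
  have h3 := (H20.Height.third_main hM (b := b) ⟨_, hb⟩).2 hbp
  have h4 := H20.Ind.isInducedBlock_unique hb h3
  rw [← h4]
  exact H20.Blk.mem_blockOf_self χ

end H32.DefZ
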