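import Cfsg.Agent.Lib.H32.M24Prime
import Cfsg.Agent.Lib.H32.NCLem
import Cfsg.Agent.S5604
import Cfsg.Agent.S5607
import Cfsg.Agent.S0378

/-!
Sylow subgroups of prime order in `M24` and `M22`.
-/

set_option autoImplicit false
set_option linter.style.haveILetI false

namespace H32.M24Cnt

open Cfsg H8.GolayCode H8.GolayCount H8.GolayBasic H8.M24Mem H8.M24Trans H32.M24Kit H32.M24Ext
open H94.M24Fix H94.M24Cls H32.M24Prime
open scoped Pointwise

variable {G : Type*} [Group G] [Finite G]

theorem fact_one {n p m : ℕ} (hp : p.Prime) (h : n = p * m) (hm : ¬ p ∣ m) : n.factorization p = 1 := by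
  have hm0 : m ≠ 0 := by rintro rfl; exact hm (dvd_zero _)
  rw [h, Nat.factorization_mul hp.ne_zero hm0, Finsupp.add_apply, hp.factorization_self,
    Nat.factorization_eq_zero_of_not_dvd hm]

/-- A subgroup of order `p` is Sylow when `p` divides the order exactly once. -/
theorem exists_sylow {p : ℕ} [Fact p.Prime] (hf : (Nat.card G).factorization p = 1) {P : Subgroup G}
    (hP : Nat.card P = p) : ∃ S : Sylow p G, (S : Subgroup G) = P := by
  obtain ⟨S, hS⟩ := (IsPGroup.of_card (n := 1) (p := p) (G := P) (by rw [hP, pow_one])).exists_le_sylow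
  refine ⟨S, ?_⟩
  symm
  apply Subgroup.eq_of_le_of_card_ge hS
  rw [S.card_eq_multiplicity, hf, pow_one, hP]

theorem cent_eq_prime {p : ℕ} (hp : p.Prime) (hf : (Nat.card G).factorization p = 1) {P : Subgroup G}
    (hP : Nat.card P = p) (hc : ∀ c ∈ Subgroup.centralizer (P : Set G), ∀ r, r.Prime → orderOf c = r → r = p) :
    Nat.card (Subgroup.centralizer (P : Set G)) = p := by
  haveI := Fact.mk hp
  set C := Subgroup.centralizer (P : Set G) with hC
  have hne : Nat.card C ≠ 0 := Nat.card_pos.ne'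
  have h1 : Nat.card C = p ^ (Nat.card C).primeFactorsList.length := by
    apply Nat.eq_prime_pow_of_unique_prime_dvd hne
    intro r hr hrd
    haveI := Fact.mk hr
    obtain ⟨c, hcr⟩ := exists_prime_orderOf_dvd_card' r hrd
    exact hc c.1 c.2 r hr (by rw [← hcr]; exact Subgroup.orderOf_coe c)
  have hPC : P ≤ C := by
    haveI : IsCyclic P := isCyclic_of_prime_card hP
    intro x hx
    rw [hC, Subgroup.mem_centralizer_iff]
    intro y hy
    letI := IsCyclic.commGroup (α := P)
    exact congrArg Subtype.val (mul_comm (⟨y, hy⟩ : P) ⟨x, hx⟩)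
  have h2 : p ∣ Nat.card C := by
    rw [← hP]; exact Subgroup.card_dvd_of_le hPC
  have h3 : Nat.card C ∣ Nat.card G := Subgroup.card_subgroup_dvd_card _
  rw [h1] at h2 h3 ⊢
  generalize (Nat.card C).primeFactorsList.length = a at *
  have h4 := (hp.pow_dvd_iff_le_factorization (Nat.card_pos (α := G)).ne').1 h3
  rw [hf] at h4
  interval_cases a
  · rw [pow_zero] at h2
    exact absurd (Nat.dvd_one.1 h2) hp.one_lt.ne'
  · rw [pow_one]

/-- The numerical data attached to a Sylow subgroup of prime order. -/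
theorem data {p : ℕ} [Fact p.Prime] (hf : (Nat.card G).factorization p = 1) {x : G} (hx : orderOf x = p)
    {c : ℕ} (hc : Nat.card (Subgroup.centralizer ((Subgroup.zpowers x : Subgroup G) : Set G)) = c) :
    ∃ k, k ∣ p - 1 ∧ Nat.card G = c * k * Nat.card (Sylow p G) ∧ Nat.card (Sylow p G) % p = 1 % p ∧
      ((k = p - 1 ∨ (2 * k = p - 1 ∧ Odd k)) → ∀ j : ℕ, ¬ p ∣ j →
        IsConj (x ^ j) x ∨ IsConj (x ^ j) x⁻¹) := by
  have hp : p.Prime := Fact.out
  have hP : Nat.card (Subgroup.zpowers x) = p := by rw [Nat.card_zpowers, hx]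
  obtain ⟨S, hS⟩ := exists_sylow hf hP
  obtain ⟨k, hk1, hk2, hk3⟩ := NCLem.nc hp (Subgroup.zpowers x) hP
  have h := NCLem.sylow_count S (by rw [hS]; exact hP) (k := k) (by rw [hS]; exact hk2)
  rw [hS, hc] at h
  refine ⟨k, hk1, h.1, h.2, fun hk j hj => hk3 hk x (Subgroup.mem_zpowers x) ?_ j hj⟩
  rintro rfl
  rw [orderOf_one] at hx
  exact hp.one_lt.ne hx

theorem mem_cent_zpowers {x c : G} (hc : c ∈ Subgroup.centralizer ((Subgroup.zpowers x : Subgroup G) : Set G)) :
    c * x = x * c := by
  rw [Subgroup.mem_centralizer_iff] at hc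
  exact (hc x (Subgroup.mem_zpowers x)).symm

/-! ### M24 -/

theorem card24 : Nat.card M24 = 244823040 := H8.M24Chain.card_M24

theorem ord_coe {H : Subgroup (Equiv.Perm GolayPt)} {g : H} {n : ℕ} (h : orderOf g = n) : orderOf g.1 = n := by
  rw [← h]; exact Subgroup.orderOf_coe g

theorem d23 {x : M24} (hx : orderOf x = 23) : Nat.card (@Sylow 23 M24 _) = 967680 ∧
    ∀ j : ℕ, ¬ 23 ∣ j → IsConj (x ^ j) x ∨ IsConj (x ^ j) x⁻¹ := by
  haveI : Fact (Nat.Prime 23) := ⟨by norm_num⟩
  have hf : (Nat.card M24).factorization 23 = 1 := by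
    rw [card24]; exact fact_one (m := 10644480) (by norm_num) (by norm_num) (by norm_num)
  have hc := cent_eq_prime (by norm_num : Nat.Prime 23) hf (P := Subgroup.zpowers x)
    (by rw [Nat.card_zpowers, hx]) (fun c hc r hr ho => cent23 x.2 c.2
      (congrArg Subtype.val (mem_cent_zpowers hc)) (ord_coe hx) hr (ord_coe ho))
  obtain ⟨k, hk1, hk2, hk3, hk4⟩ := data hf hx hc
  rw [card24] at hk2
  generalize Nat.card (@Sylow 23 M24 _) = n at *
  have hk : k = 1 ∨ k = 2 ∨ k = 11 ∨ k = 22 := by
    have := Nat.le_of_dvd (by norm_num) hk1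
    interval_cases k <;> revert hk1 <;> decide
  rcases hk with rfl | rfl | rfl | rfl
  · omega
  · omega
  · exact ⟨by omega, hk4 (Or.inr ⟨by norm_num, by decide⟩)⟩
  · omega

theorem d11 {x : M24} (hx : orderOf x = 11) : Nat.card (@Sylow 11 M24 _) = 2225664 ∧
    ∀ j : ℕ, ¬ 11 ∣ j → IsConj (x ^ j) x ∨ IsConj (x ^ j) x⁻¹ := by
  haveI : Fact (Nat.Prime 11) := ⟨by norm_num⟩
  have hf : (Nat.card M24).factorization 11 = 1 := by
    rw [card24]; exact fact_one (m := 22256640) (by norm_num) (by norm_num) (by norm_num)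
  have hc := cent_eq_prime (by norm_num : Nat.Prime 11) hf (P := Subgroup.zpowers x)
    (by rw [Nat.card_zpowers, hx]) (fun c hc r hr ho => by
      have hcx : c.1 * x.1 = x.1 * c.1 := congrArg Subtype.val (mem_cent_zpowers hc)
      by_cases hr2 : r = 2
      · exfalso
        rw [hr2] at ho
        have h1 := fx_prime x.2 (by norm_num : Nat.Prime 11) (by norm_num) (ord_coe hx)
        obtain ⟨q1, q2, q3, q4⟩ := pair hcx (by norm_num : Nat.Prime 11) Nat.prime_two (ord_coe hx) (ord_coe ho)
        rw [h1] at q2 q4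
        have h0 : (fx c.1).card = 0 := by
          rcases fx_two c.2 (ord_coe ho) with h | h
          · rw [h] at q1 q3
            generalize (fx c.1 ∩ fx x.1).card = a at *
            unfold Nat.ModEq at q1 q2
            omega
          · exact h
        rw [Finset.card_eq_zero] at h0
        have h7680 := (Cfsg.Agent.S5607.result c.1 c.2 (ord_coe ho) (fun p hp => by
          have : p ∈ fx c.1 := mem_fx.2 hp
          rw [h0] at this
          exact absurd this (Finset.notMem_empty _))).1
        -- `x` lies in the centralizer of `c`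
        have h2 : orderOf x ∣ Nat.card (Subgroup.centralizer ({c} : Set M24)) := by
          have h3 : x ∈ Subgroup.centralizer ({c} : Set M24) := by
            rw [Subgroup.mem_centralizer_singleton_iff]
            exact (mem_cent_zpowers hc).symm
          rw [← Subgroup.orderOf_mk x h3]
          exact orderOf_dvd_natCard _
        have h4 : Nat.card (Subgroup.centralizer ({c} : Set M24)) = 7680 := by
          rw [← h7680]
          refine Nat.card_congr ⟨fun g => ⟨g.1.1, g.1.2, ?_⟩, fun g => ⟨⟨g.1, g.2.1⟩, ?_⟩, fun _ => rfl, fun _ => rfl⟩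
          · exact congrArg Subtype.val (Subgroup.mem_centralizer_singleton_iff.1 g.2)
          · rw [Subgroup.mem_centralizer_singleton_iff]
            exact Subtype.ext g.2.2
        rw [hx, h4] at h2
        revert h2
        norm_num
      · exact cent11 x.2 c.2 hcx (ord_coe hx) hr (ord_coe ho) hr2)
  obtain ⟨k, hk1, hk2, hk3, hk4⟩ := data hf hx hc
  rw [card24] at hk2
  generalize Nat.card (@Sylow 11 M24 _) = n at *
  have hk : k = 1 ∨ k = 2 ∨ k = 5 ∨ k = 10 := by
    have := Nat.le_of_dvd (by norm_num) hk1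
    interval_cases k <;> revert hk1 <;> decide
  rcases hk with rfl | rfl | rfl | rfl
  · omega
  · omega
  · omega
  · exact ⟨by omega, hk4 (Or.inl rfl)⟩

theorem d7 {x : M24} (hx : orderOf x = 7) : Nat.card (@Sylow 7 M24 _) = 1943040 ∧
    ∀ j : ℕ, ¬ 7 ∣ j → IsConj (x ^ j) x ∨ IsConj (x ^ j) x⁻¹ := by
  haveI : Fact (Nat.Prime 7) := ⟨by norm_num⟩
  have hf : (Nat.card M24).factorization 7 = 1 := by
    rw [card24]; exact fact_one (m := 34974720) (by norm_num) (by norm_num) (by norm_num)
  have hc := (Cfsg.Agent.S5604.result (Subgroup.zpowers x) (by rw [Nat.card_zpowers, hx])).2.1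
  obtain ⟨k, hk1, hk2, hk3, hk4⟩ := data hf hx hc
  rw [card24] at hk2
  generalize Nat.card (@Sylow 7 M24 _) = n at *
  have hk : k = 1 ∨ k = 2 ∨ k = 3 ∨ k = 6 := by
    have := Nat.le_of_dvd (by norm_num) hk1
    interval_cases k <;> revert hk1 <;> decide
  rcases hk with rfl | rfl | rfl | rfl
  · omega
  · omega
  · exact ⟨by omega, hk4 (Or.inr ⟨by norm_num, by decide⟩)⟩
  · omega

end H32.M24Cnt
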