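import Cfsg.Agent.Lib.H32.M24Cnt

/-!
The Sylow 5-subgroups of `M24`.
-/

set_option autoImplicit false
set_option linter.style.haveILetI false

namespace H32.M24Five

open Cfsg H8.GolayCode H8.GolayCount H8.GolayBasic H8.M24Mem H8.M24Trans H32.M24Kit H32.M24Ext
open H94.M24Fix H94.M24Cls H94.M24Inv H32.M24Prime H32.M24Cnt
open scoped Pointwise

def X5 : ℕ := 0xa3aa1792304ca6ab1477388cb6b008
def U3 : ℕ := 0x90aa49a8f17b1a835d2e8068518176
def V2 : ℕ := 0x988efbaa11a310e3482daac8505923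

theorem okX5 : okTab X5 = true := by decide +kernel
theorem okU3 : okComm X5 U3 = true := by decide +kernel
theorem okV2 : okComm X5 V2 = true := by decide +kernel

theorem okComm_tab {T c : ℕ} (h : okComm T c = true) : okTab c = true := by
  unfold okComm at h
  rw [Bool.and_eq_true] at h
  exact h.1

theorem pw {c : ℕ} (hc : okTab c = true) {n : ℕ} (h : ∀ i < 24, (tab c)^[n] i = i) : pm c ^ n = 1 := by
  apply Equiv.ext
  intro p
  apply idx_injective
  have key : ∀ m : ℕ, ∀ q, idx ((pm c ^ m) q) = (tab c)^[m] (idx q) := by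
    intro m
    induction m with
    | zero => intro q; rfl
    | succ m ih =>
      intro q
      rw [pow_succ', Equiv.Perm.mul_apply, pm_idx hc, ih, Function.iterate_succ_apply']
  rw [key, h _ (idx_lt p)]
  rfl

theorem ne_one {c : ℕ} (hc : okTab c = true) (h : tab c 23 ≠ 23) : pm c ≠ 1 := by
  intro h1
  apply h
  have h2 := pm_idx hc (pt 23)
  rw [h1] at h2
  rw [idx_pt 23 (by norm_num)] at h2
  rw [← h2]
  exact idx_pt 23 (by norm_num)

theorem ordX : orderOf (pm X5) = 5 := by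
  haveI : Fact (Nat.Prime 5) := ⟨by norm_num⟩
  exact orderOf_eq_prime (pw okX5 (by decide +kernel)) (ne_one okX5 (by decide +kernel))

theorem ordU : orderOf (pm U3) = 3 := by
  haveI : Fact (Nat.Prime 3) := ⟨by norm_num⟩
  exact orderOf_eq_prime (pw (okComm_tab okU3) (by decide +kernel))
    (ne_one (okComm_tab okU3) (by decide +kernel))

theorem ordV : orderOf (pm V2) = 2 := by
  haveI : Fact (Nat.Prime 2) := ⟨by norm_num⟩
  exact orderOf_eq_prime (pw (okComm_tab okV2) (by decide +kernel))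
    (ne_one (okComm_tab okV2) (by decide +kernel))

theorem hf5 : (Nat.card M24).factorization 5 = 1 := by
  rw [card24]; exact fact_one (m := 48964608) (by norm_num) (by norm_num) (by norm_num)

theorem mem_cent_iff {G : Type*} [Group G] {x c : G} :
    c ∈ Subgroup.centralizer ((Subgroup.zpowers x : Subgroup G) : Set G) ↔ c * x = x * c := by
  constructor
  · intro hc
    rw [Subgroup.mem_centralizer_iff] at hc
    exact (hc x (Subgroup.mem_zpowers x)).symm
  · intro h
    rw [Subgroup.mem_centralizer_iff]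
    rintro _ ⟨k, rfl⟩
    exact ((show Commute c x from h).zpow_right k).symm.eq

theorem ord_dvd {x c : M24} {n : ℕ} (h : c * x = x * c) (hc : orderOf c.1 = n) :
    n ∣ Nat.card (Subgroup.centralizer ((Subgroup.zpowers x : Subgroup M24) : Set M24)) := by
  have h3 := mem_cent_iff.2 h
  rw [← hc, Subgroup.orderOf_coe, ← Subgroup.orderOf_mk c h3]
  exact orderOf_dvd_natCard _

theorem dvd30_x0 : 30 ∣ Nat.card (Subgroup.centralizer
    ((Subgroup.zpowers (⟨pm X5, pm_mem X5⟩ : M24) : Subgroup M24) : Set M24)) := by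
  have h5 := ord_dvd (x := ⟨pm X5, pm_mem X5⟩) (c := ⟨pm X5, pm_mem X5⟩) rfl ordX
  have h3 := ord_dvd (x := ⟨pm X5, pm_mem X5⟩) (c := ⟨pm U3, pm_mem U3⟩)
    (Subtype.ext (pm_comm okX5 okU3)) ordU
  have h2 := ord_dvd (x := ⟨pm X5, pm_mem X5⟩) (c := ⟨pm V2, pm_mem V2⟩)
    (Subtype.ext (pm_comm okX5 okV2)) ordV
  omega

theorem dvd30 {x : M24} (hx : orderOf x = 5) : 30 ∣ Nat.card (Subgroup.centralizer
    ((Subgroup.zpowers x : Subgroup M24) : Set M24)) := by
  haveI : Fact (Nat.Prime 5) := ⟨by norm_num⟩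
  have hx0 : orderOf (⟨pm X5, pm_mem X5⟩ : M24) = 5 := by rw [Subgroup.orderOf_mk]; exact ordX
  obtain ⟨S, hS⟩ := exists_sylow hf5 (P := Subgroup.zpowers x) (by rw [Nat.card_zpowers, hx])
  obtain ⟨T, hT⟩ := exists_sylow hf5 (P := Subgroup.zpowers (⟨pm X5, pm_mem X5⟩ : M24))
    (by rw [Nat.card_zpowers, hx0])
  obtain ⟨g, hg⟩ := MulAction.exists_smul_eq M24 T S
  have h1 : Subgroup.zpowers x = (Subgroup.zpowers (⟨pm X5, pm_mem X5⟩ : M24)).map
      (MulAut.conj g).toMonoidHom := by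
    rw [← hS, ← hT, ← hg]; rfl
  rw [h1]
  have h2 : Nat.card (Subgroup.centralizer (((Subgroup.zpowers (⟨pm X5, pm_mem X5⟩ : M24)).map
      (MulAut.conj g).toMonoidHom : Subgroup M24) : Set M24)) =
      Nat.card (Subgroup.centralizer ((Subgroup.zpowers (⟨pm X5, pm_mem X5⟩ : M24) : Subgroup M24) : Set M24)) := by
    set P := Subgroup.zpowers (⟨pm X5, pm_mem X5⟩ : M24) with hP
    have hmem : ∀ c : M24, c ∈ Subgroup.centralizer ((P.map (MulAut.conj g).toMonoidHom : Subgroup M24) : Set M24) ↔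
        g⁻¹ * c * g ∈ Subgroup.centralizer (P : Set M24) := by
      intro c
      rw [Subgroup.mem_centralizer_iff, Subgroup.mem_centralizer_iff]
      constructor
      · intro h y hy
        have h4 := h (g * y * g⁻¹) ⟨y, hy, rfl⟩
        calc y * (g⁻¹ * c * g) = g⁻¹ * ((g * y * g⁻¹) * c) * g := by group
          _ = g⁻¹ * (c * (g * y * g⁻¹)) * g := by rw [h4]
          _ = g⁻¹ * c * g * y := by group
      · rintro h _ ⟨y, hy, rfl⟩
        have h4 := h y hy
        change g * y * g⁻¹ * c = c * (g * y * g⁻¹)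
        calc g * y * g⁻¹ * c = g * (y * (g⁻¹ * c * g)) * g⁻¹ := by group
          _ = g * (g⁻¹ * c * g * y) * g⁻¹ := by rw [h4]
          _ = c * (g * y * g⁻¹) := by group
    refine Nat.card_congr ⟨fun c => ⟨g⁻¹ * c.1 * g, (hmem _).1 c.2⟩, fun c => ⟨g * c.1 * g⁻¹, ?_⟩, ?_, ?_⟩
    · rw [hmem]
      have : g⁻¹ * (g * c.1 * g⁻¹) * g = c.1 := by group
      rw [this]; exact c.2
    · intro c
      apply Subtype.ext
      show g * (g⁻¹ * c.1 * g) * g⁻¹ = c.1
      group
    · intro c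
      apply Subtype.ext
      show g⁻¹ * (g * c.1 * g⁻¹) * g = c.1
      group
  rw [h2]
  exact dvd30_x0

theorem card_cent {x : M24} (hx : orderOf x = 5) : ∃ m, m ∣ 24 ∧ m ≠ 24 ∧
    Nat.card (Subgroup.centralizer ((Subgroup.zpowers x : Subgroup M24) : Set M24)) = 5 * m := by
  classical
  haveI : Fact (Nat.Prime 5) := ⟨by norm_num⟩
  set C := Subgroup.centralizer ((Subgroup.zpowers x : Subgroup M24) : Set M24) with hC
  have h4 : (fx x.1).card = 4 := fx_prime x.2 (by norm_num : Nat.Prime 5) (by norm_num) (ord_coe hx)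
  have hcm : ∀ c : C, c.1.1 * x.1 = x.1 * c.1.1 := fun c => congrArg Subtype.val (mem_cent_iff.1 c.2)
  have hmem : ∀ c : C, ∀ a, a ∈ fx x.1 → c.1.1 a ∈ fx x.1 := by
    intro c a ha
    rw [mem_fx] at ha ⊢
    have := congrArg (fun f : Equiv.Perm GolayPt => f a) (hcm c)
    simp only [Equiv.Perm.mul_apply] at this
    rw [← this, ha]
  have hmem' : ∀ c : C, ∀ a, c.1.1 a ∈ fx x.1 ↔ a ∈ fx x.1 := by
    intro c a
    refine ⟨fun h => ?_, hmem c a⟩
    have := hmem c⁻¹ _ h
    have h1 : (c⁻¹ : C).1.1 (c.1.1 a) = a := c.1.1.symm_apply_apply a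
    rwa [h1] at this
  let ψ : C →* Equiv.Perm (fx x.1) :=
    { toFun := fun c => c.1.1.subtypePerm (p := fun a => a ∈ fx x.1) (fun a => hmem' c a)
      map_one' := by ext a; rfl
      map_mul' := fun c d => by ext a; rfl }
  have hψ : ∀ (c : C) (a : fx x.1), ((ψ c a : fx x.1) : GolayPt) = c.1.1 a := fun _ _ => rfl
  have hxC : x ∈ C := mem_cent_iff.2 rfl
  -- the kernel
  have hker : Nat.card ψ.ker = 5 := by
    have hne : Nat.card ψ.ker ≠ 0 := Nat.card_pos.ne'
    have h1 : Nat.card ψ.ker = 5 ^ (Nat.card ψ.ker).primeFactorsList.length := by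
      apply Nat.eq_prime_pow_of_unique_prime_dvd hne
      intro r hr hrd
      haveI := Fact.mk hr
      obtain ⟨c, hcr⟩ := exists_prime_orderOf_dvd_card' r hrd
      have ho : orderOf c.1.1.1 = r := by
        rw [← hcr, Subgroup.orderOf_coe, Subgroup.orderOf_coe, Subgroup.orderOf_coe]
      have hfix : fx c.1.1.1 ∩ fx x.1 = fx x.1 := by
        rw [Finset.inter_eq_right]
        intro a ha
        rw [mem_fx]
        have h2 := congrArg (fun σ : Equiv.Perm (fx x.1) => ((σ ⟨a, ha⟩ : fx x.1) : GolayPt)) c.2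
        exact h2
      rcases cent5 x.2 c.1.1.2 (hcm c.1) (ord_coe hx) hr ho with h | ⟨-, h⟩ | ⟨-, h⟩
      · exact h
      · rw [hfix, h4] at h; omega
      · rw [hfix, h4] at h; omega
    have hxk : (⟨x, hxC⟩ : C) ∈ ψ.ker := by
      rw [MonoidHom.mem_ker]
      refine Equiv.ext fun a => Subtype.ext ?_
      rw [hψ]
      exact mem_fx.1 a.2
    have h2 : 5 ∣ Nat.card ψ.ker := by
      have : orderOf (⟨⟨x, hxC⟩, hxk⟩ : ψ.ker) = 5 := by
        rw [Subgroup.orderOf_mk, Subgroup.orderOf_mk, hx]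
      rw [← this]
      exact orderOf_dvd_natCard _
    have h3 : Nat.card ψ.ker ∣ Nat.card M24 :=
      (Subgroup.card_subgroup_dvd_card _).trans (Subgroup.card_subgroup_dvd_card _)
    rw [h1] at h2 h3 ⊢
    generalize (Nat.card ψ.ker).primeFactorsList.length = a at *
    have h4 := ((by norm_num : Nat.Prime 5).pow_dvd_iff_le_factorization (Nat.card_pos (α := M24)).ne').1 h3
    rw [hf5] at h4
    interval_cases a
    · norm_num at h2
    · norm_num
  have hcard : Nat.card C = 5 * Nat.card ψ.range := by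
    rw [← hker, ← Nat.card_congr (QuotientGroup.quotientKerEquivRange ψ).toEquiv, mul_comm]
    exact Subgroup.card_eq_card_quotient_mul_card_subgroup ψ.ker
  have hperm : Nat.card (Equiv.Perm (fx x.1)) = 24 := by
    rw [Nat.card_eq_fintype_card, Fintype.card_perm, Fintype.card_coe, h4]; rfl
  refine ⟨Nat.card ψ.range, by rw [← hperm]; exact Subgroup.card_subgroup_dvd_card _, ?_, hcard⟩
  intro h24
  have htop : ψ.range = ⊤ := Subgroup.eq_top_of_card_eq _ (by rw [h24, hperm])
  -- two points to be exchanged, and a third one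
  obtain ⟨a, b, d, hab, had, hbd⟩ : ∃ a b d : fx x.1, a ≠ b ∧ a ≠ d ∧ b ≠ d := by
    have h3 : 2 < Fintype.card (fx x.1) := by rw [Fintype.card_coe, h4]; norm_num
    obtain ⟨a, b, d, h⟩ := Fintype.two_lt_card_iff.1 h3
    exact ⟨a, b, d, h.1, h.2.1, h.2.2⟩
  have hsw : Equiv.swap a b ∈ ψ.range := by rw [htop]; trivial
  obtain ⟨c, hc⟩ := hsw
  have hc2 : c ^ 2 ∈ ψ.ker := by
    rw [MonoidHom.mem_ker, map_pow, hc, pow_two, Equiv.swap_mul_self]
  have hc10 : c ^ 10 = 1 := by
    have h1 : (⟨c ^ 2, hc2⟩ : ψ.ker) ^ 5 = 1 := by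
      rw [← hker]; exact pow_card_eq_one'
    have h2 := congrArg Subtype.val h1
    change (c ^ 2) ^ 5 = 1 at h2
    rw [← pow_mul] at h2
    exact h2
  have he : ψ (c ^ 5) = Equiv.swap a b := by
    rw [map_pow, hc, show 5 = 2 + 2 + 1 by norm_num, pow_add, pow_add, pow_one, pow_two,
      Equiv.swap_mul_self, one_mul, one_mul]
  have he1 : c ^ 5 ≠ 1 := by
    intro h
    rw [h, map_one] at he
    have := congrArg (fun σ : Equiv.Perm (fx x.1) => σ a) he
    simp only [Equiv.Perm.one_apply, Equiv.swap_apply_left] at this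
    exact hab this
  have ho : orderOf (c ^ 5).1.1 = 2 := by
    rw [Subgroup.orderOf_coe, Subgroup.orderOf_coe]
    apply orderOf_eq_prime _ he1
    rw [← pow_mul]; exact hc10
  rcases cent5 x.2 (c ^ 5).1.2 (hcm (c ^ 5)) (ord_coe hx) Nat.prime_two ho with h | ⟨-, h⟩ | ⟨h, -⟩
  · omega
  · rw [Finset.card_eq_zero] at h
    have h5 : (d : GolayPt) ∈ fx (c ^ 5).1.1 ∩ fx x.1 := by
      rw [Finset.mem_inter]
      refine ⟨?_, d.2⟩
      rw [mem_fx, ← hψ, he, Equiv.swap_apply_of_ne_of_ne had.symm hbd.symm]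
    rw [h] at h5
    exact absurd h5 (Finset.notMem_empty _)
  · omega

theorem d5 {x : M24} (hx : orderOf x = 5) : Nat.card (@Sylow 5 M24 _) = 1020096 ∧
    (∀ j : ℕ, ¬ 5 ∣ j → IsConj (x ^ j) x ∨ IsConj (x ^ j) x⁻¹) ∧
    Nat.card (Subgroup.centralizer ({x} : Set M24)) = 60 := by
  haveI : Fact (Nat.Prime 5) := ⟨by norm_num⟩
  obtain ⟨m, hm1, hm2, hm3⟩ := card_cent hx
  have h30 := dvd30 hx
  obtain ⟨k, hk1, hk2, hk3, hk4⟩ := data hf5 hx hm3
  rw [card24] at hk2
  have hcz : Subgroup.centralizer ({x} : Set M24) =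
      Subgroup.centralizer ((Subgroup.zpowers x : Subgroup M24) : Set M24) := by
    ext c
    rw [mem_cent_iff, Subgroup.mem_centralizer_singleton_iff]
  rw [hcz, hm3]
  rw [hm3] at h30
  generalize Nat.card (@Sylow 5 M24 _) = n at *
  have hk : k = 1 ∨ k = 2 ∨ k = 4 := by
    have := Nat.le_of_dvd (by norm_num) hk1
    interval_cases k <;> revert hk1 <;> decide
  have hm : m = 6 ∨ m = 12 := by
    have := Nat.le_of_dvd (by norm_num) hm1
    have h6 : 6 ∣ m := by omega
    obtain ⟨q, rfl⟩ := h6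
    have : q ≤ 4 := by omega
    interval_cases q
    · omega
    · left; rfl
    · right; rfl
    · revert hm1; decide
    · omega
  rcases hm with rfl | rfl
  · exfalso
    rcases hk with rfl | rfl | rfl <;> omega
  · rcases hk with rfl | rfl | rfl
    · omega
    · omega
    · exact ⟨by omega, hk4 (Or.inl rfl), rfl⟩

end H32.M24Five
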