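import Cfsg.Agent.Lib.H32.M24Prime
import Cfsg.Agent.Lib.H32.SextetN
import Cfsg.Agent.S5394
import Cfsg.Agent.S5608

/-!
The centralizers of the involutions of `M24` and `M22` are 2-constrained.
-/

set_option autoImplicit false
set_option linter.style.haveILetI false

namespace H32.M24Loc

open Cfsg H8.GolayCode H8.GolayCount H8.GolayBasic H8.M24Mem H8.M24Trans H32.M24Kit H32.M24Ext
open H94.M24Fix H94.M24Cls H32.M24Prime H9.OctadStab H32.SextetN
open scoped Pointwise

/-- an element of `M24` with more than eight fixed points is trivial -/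
theorem eq_one_of_fx {e : Equiv.Perm GolayPt} (he : e ∈ M24) (h9 : 9 ≤ (fx e).card) : e = 1 := by
  by_contra h1
  have hn : orderOf e ≠ 1 := fun h => h1 (orderOf_eq_one_iff.1 h)
  obtain ⟨r, hr, hrd⟩ := Nat.exists_prime_and_dvd hn
  obtain ⟨m, hm⟩ := hrd
  have hpos := orderOf_pos e
  have hm0 : m ≠ 0 := by rintro rfl; omega
  have ho : orderOf (e ^ m) = r := by
    rw [orderOf_pow_of_dvd hm0 ⟨r, by rw [hm, mul_comm]⟩, hm, Nat.mul_div_cancel _ (Nat.pos_of_ne_zero hm0)]
  have hmem : e ^ m ∈ M24 := M24.pow_mem he m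
  have hsub : fx e ⊆ fx (e ^ m) := by
    intro a ha
    rw [mem_fx] at ha ⊢
    exact Equiv.Perm.pow_apply_eq_self_of_apply_eq_self ha m
  have hc := Finset.card_le_card hsub
  rcases Nat.lt_or_ge r 5 with h5 | h5
  · have : r = 2 ∨ r = 3 := by
      have := hr.two_le
      interval_cases r
      · left; rfl
      · right; rfl
      · exact absurd hr (by norm_num)
    rcases this with rfl | rfl
    · rcases fx_two hmem ho with h | h <;> omega
    · rcases fx_three hmem ho with h | h <;> omega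
  · have := fx_le hmem hr h5 ho
    omega

theorem fx_conj_mem {c t : Equiv.Perm GolayPt} (h : c * t = t * c) {a : GolayPt} (ha : a ∈ fx t) :
    c a ∈ fx t := by
  rw [mem_fx] at ha ⊢
  have := congrArg (fun f : Equiv.Perm GolayPt => f a) h
  simp only [Equiv.Perm.mul_apply] at this
  rw [← this, ha]

/-- the centralizer of the pointwise stabilizer of an octad -/
theorem cent_oFix {o : Finset GolayPt} (ho : o ∈ octads) {c : Equiv.Perm GolayPt} (hc : c ∈ M24)
    (hco : ∀ a ∈ o, c a ∈ o) (h : ∀ q ∈ oFix o, q * c = c * q) : c ∈ oFix o := by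
  have h8 : o.card = 8 := (mem_octads.1 ho).2
  have himg : o.image c = o :=
    Finset.eq_of_subset_of_card_le (fun a ha => by
      obtain ⟨b, hb, rfl⟩ := Finset.mem_image.1 ha
      exact hco b hb) (by rw [Finset.card_image_of_injective _ c.injective])
  have hout : ∀ a, a ∉ o → c a ∉ o := by
    intro a ha hca
    rw [← himg, Finset.mem_image] at hca
    obtain ⟨b, hb, hbc⟩ := hca
    rw [c.injective hbc] at hb
    exact ha hb
  obtain ⟨x, hx⟩ := exists_off ho
  obtain ⟨v, hv, hvx⟩ := exists_move ho hx (hout x hx)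
  have hvc : v⁻¹ * c = 1 := by
    apply eq_one_of_fx (M24.mul_mem (M24.inv_mem (mem_oFix.1 hv).1) hc)
    have hsub : oᶜ ⊆ fx (v⁻¹ * c) := by
      intro y hy
      rw [Finset.mem_compl] at hy
      obtain ⟨w, hw, hwx⟩ := exists_move ho hx hy
      rw [mem_fx]
      have hcomm : v⁻¹ * c * w = w * (v⁻¹ * c) := by
        have h1 := h w hw
        have h2 : w * v = v * w := by
          have ha := exp_two (M24.mul_mem (mem_oFix.1 hv).1 (mem_oFix.1 hw).1) ho (fun z hz => by
            rw [Equiv.Perm.mul_apply, (mem_oFix.1 hw).2 z hz, (mem_oFix.1 hv).2 z hz])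
          have hb := exp_two (mem_oFix.1 hv).1 ho (mem_oFix.1 hv).2
          have hd := exp_two (mem_oFix.1 hw).1 ho (mem_oFix.1 hw).2
          calc w * v = (v * v) * w * v * (w * w) := by rw [hb, hd]; simp
            _ = v * (v * w * (v * w)) * w := by simp only [mul_assoc]
            _ = v * w := by rw [ha]; simp
        rw [mul_assoc, ← h1, ← mul_assoc, ← mul_assoc]
        congr 1
        rw [inv_mul_eq_iff_eq_mul, ← mul_assoc, ← h2, mul_assoc, mul_inv_cancel, mul_one]
      have h3 : (v⁻¹ * c) x = x := by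
        rw [Equiv.Perm.mul_apply, ← hvx]
        exact v.symm_apply_apply x
      rw [← hwx, ← Equiv.Perm.mul_apply, hcomm, Equiv.Perm.mul_apply, h3]
    have := Finset.card_le_card hsub
    rw [Finset.card_compl, h8, ← Finset.card_univ, card_univ24] at this
    omega
  rw [inv_mul_eq_one] at hvc
  rw [← hvc]
  exact hv

/-- The local data required at an involution. -/
def Loc {H : Type*} [Group H] (t : H) : Prop :=
  ∃ Q : Subgroup H, IsPGroup 2 Q ∧ (∀ q ∈ Q, q * t = t * q) ∧
      (∀ c : H, c * t = t * c → ∀ q ∈ Q, c * q * c⁻¹ ∈ Q) ∧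
      ∀ c : H, c * t = t * c → (∀ q ∈ Q, q * c = c * q) → ¬ 2 ∣ orderOf c → c = 1

theorem exp_comm {X : Type*} [Group X] {Q : Subgroup X} (h : ∀ q ∈ Q, q * q = 1) {a b : X} (ha : a ∈ Q)
    (hb : b ∈ Q) : a * b = b * a := by
  have h1 := h _ (Q.mul_mem ha hb)
  have h2 := h _ ha
  have h3 := h _ hb
  calc a * b = a * b * ((b * a) * (b * a)) := by rw [h _ (Q.mul_mem hb ha), mul_one]
    _ = a * (b * b) * a * (b * a) := by simp only [mul_assoc]
    _ = b * a := by rw [h3, mul_one, h2, one_mul]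

theorem isPGroup_of_exp {X : Type*} [Group X] {Q : Subgroup X} (h : ∀ q ∈ Q, q * q = 1) : IsPGroup 2 Q := by
  intro q
  refine ⟨1, ?_⟩
  apply Subtype.ext
  rw [pow_one, pow_two]
  exact h q q.2

theorem loc_octad {H : Subgroup (Equiv.Perm GolayPt)} (hH : H ≤ M24) (t : H) (ht2 : t * t = 1)
    (ho : fx t.1 ∈ octads) (hle : ∀ g ∈ oFix (fx t.1), g ∈ H) : Loc t := by
  have hexp : ∀ q ∈ (oFix (fx t.1)).subgroupOf H, q * q = 1 := by
    intro q hq
    apply Subtype.ext
    exact exp_two (hH q.2) ho (mem_oFix.1 (Subgroup.mem_subgroupOf.1 hq)).2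
  have htQ : t ∈ (oFix (fx t.1)).subgroupOf H := by
    rw [Subgroup.mem_subgroupOf, mem_oFix]
    exact ⟨hH t.2, fun z hz => mem_fx.1 hz⟩
  refine ⟨(oFix (fx t.1)).subgroupOf H, isPGroup_of_exp hexp, fun q hq => exp_comm hexp hq htQ, ?_, ?_⟩
  · intro c hc q hq
    rw [Subgroup.mem_subgroupOf, mem_oFix] at hq ⊢
    refine ⟨M24.mul_mem (M24.mul_mem (hH c.2) hq.1) (M24.inv_mem (hH c.2)), ?_⟩
    intro z hz
    have hc' : (c⁻¹ : H).1 * t.1 = t.1 * (c⁻¹ : H).1 := by
      have h1 : c⁻¹ * t = t * c⁻¹ := by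
        rw [inv_mul_eq_iff_eq_mul, ← mul_assoc, hc, mul_assoc, mul_inv_cancel, mul_one]
      exact congrArg Subtype.val h1
    have h2 := fx_conj_mem hc' hz
    show c.1 (q.1 ((c⁻¹ : H).1 z)) = z
    rw [hq.2 _ h2]
    exact c.1.apply_symm_apply z
  · intro c hc hq hodd
    have h1 : c.1 ∈ oFix (fx t.1) := by
      apply cent_oFix ho (hH c.2) (fun a ha => fx_conj_mem (congrArg Subtype.val hc) ha)
      intro q hq'
      exact congrArg Subtype.val (hq ⟨q, hle q hq'⟩ (Subgroup.mem_subgroupOf.2 hq'))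
    have h2 : c * c = 1 := hexp c (Subgroup.mem_subgroupOf.2 h1)
    by_contra hc1
    exact hodd (by rw [orderOf_eq_prime (by rw [pow_two, h2]) hc1])

/-- `NS S` contains an involution with fixed points -/
theorem exists_fixed {S : Finset (Finset GolayPt)} (hS : S ∈ sextets) :
    ∃ z ∈ NS S, orderOf z = 2 ∧ (fx z).card = 8 := by
  classical
  obtain ⟨t, ht, hp⟩ := cover hS none
  have hcard : t.card = 4 := hS.2.1 t ht
  haveI : Fintype (NS S) := Fintype.ofFinite _
  let f : NS S → t := fun g => ⟨g.1 none, by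
    have := (g.2.2 t ht).1
    rw [← this]
    exact Finset.mem_image_of_mem _ hp⟩
  have hlt : Fintype.card t < Fintype.card (NS S) := by
    rw [Fintype.card_coe, hcard, ← Nat.card_eq_fintype_card, card_NS hS]
    norm_num
  obtain ⟨g, h, hgh, hf⟩ := Fintype.exists_ne_map_eq_of_card_lt f hlt
  have hf' : g.1 none = h.1 none := congrArg Subtype.val hf
  refine ⟨h.1⁻¹ * g.1, (NS S).mul_mem ((NS S).inv_mem h.2) g.2, ?_, ?_⟩
  · apply orderOf_eq_prime
    · rw [pow_two]
      exact mul_self hS ((NS S).mul_mem ((NS S).inv_mem h.2) g.2)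
    · intro he
      rw [inv_mul_eq_one] at he
      exact hgh (Subtype.ext he.symm)
  · have hm : h.1⁻¹ * g.1 ∈ M24 := NS_le S ((NS S).mul_mem ((NS S).inv_mem h.2) g.2)
    have ho : orderOf (h.1⁻¹ * g.1) = 2 := by
      apply orderOf_eq_prime
      · rw [pow_two]
        exact mul_self hS ((NS S).mul_mem ((NS S).inv_mem h.2) g.2)
      · intro he
        rw [inv_mul_eq_one] at he
        exact hgh (Subtype.ext he.symm)
    rcases fx_two hm ho with h8 | h0
    · exact h8
    · exfalso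
      rw [Finset.card_eq_zero] at h0
      have : (none : GolayPt) ∈ fx (h.1⁻¹ * g.1) := by
        rw [mem_fx, Equiv.Perm.mul_apply, hf']
        exact h.1.symm_apply_apply _
      rw [h0] at this
      exact absurd this (Finset.notMem_empty _)

/-- a non-trivial element of odd order of `M24` does not commute with involutions of both classes -/
theorem no_both {c t z : Equiv.Perm GolayPt} (hc : c ∈ M24) (ht : t ∈ M24) (hz : z ∈ M24)
    (ht2 : orderOf t = 2) (hz2 : orderOf z = 2) (ht0 : (fx t).card = 0) (hz8 : (fx z).card = 8)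
    (hct : c * t = t * c) (hcz : c * z = z * c) (hodd : ¬ 2 ∣ orderOf c) : c = 1 := by
  by_contra h1
  have hn : orderOf c ≠ 1 := fun h => h1 (orderOf_eq_one_iff.1 h)
  obtain ⟨r, hr, hrd⟩ := Nat.exists_prime_and_dvd hn
  have hr2 : r ≠ 2 := by rintro rfl; exact hodd hrd
  obtain ⟨m, hm⟩ := hrd
  have hpos := orderOf_pos c
  have hm0 : m ≠ 0 := by rintro rfl; omega
  have ho : orderOf (c ^ m) = r := by
    rw [orderOf_pow_of_dvd hm0 ⟨r, by rw [hm, mul_comm]⟩, hm, Nat.mul_div_cancel _ (Nat.pos_of_ne_zero hm0)]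
  have hmem : c ^ m ∈ M24 := M24.pow_mem hc m
  have hct' : t * c ^ m = c ^ m * t := ((show Commute c t from hct).pow_left m).symm.eq
  have hcz' : z * c ^ m = c ^ m * z := ((show Commute c z from hcz).pow_left m).symm.eq
  obtain ⟨p1, p2, p3, p4⟩ := pair hct' hr Nat.prime_two ho ht2
  obtain ⟨q1, q2, q3, q4⟩ := pair hcz' hr Nat.prime_two ho hz2
  have hd := order_dvd hmem
  rw [ho] at hd
  generalize (fx t ∩ fx (c ^ m)).card = a at p1 p2 p3 p4
  generalize (fx z ∩ fx (c ^ m)).card = b at q1 q2 q3 q4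
  rw [ht0] at p1 p3
  rw [hz8] at q1 q3
  unfold Nat.ModEq at p1 p2 q1 q2
  rcases primes hr hd with rfl | rfl | rfl | rfl | rfl | rfl
  · exact hr2 rfl
  · have h5 := Cfsg.Agent.S5608.result (c ^ m) t hmem ht ho ht2 hct'.symm
    have h6 := Cfsg.Agent.S5608.result (c ^ m) z hmem hz ho hz2 hcz'.symm
    unfold fx at ht0 hz8
    omega
  · have h := fx_prime hmem hr (by norm_num) ho
    rw [h] at p2 p4 q2 q4; omega
  · have h := fx_prime hmem hr (by norm_num) ho
    rw [h] at p2 p4 q2 q4; omega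
  · have h := fx_prime hmem hr (by norm_num) ho
    rw [h] at p2 p4 q2 q4; omega
  · have h := fx_prime hmem hr (by norm_num) ho
    rw [h] at p2 p4 q2 q4; omega

/-- a fixed-point-free involution preserving the tetrads lies in `NS S` -/
theorem mem_NS {S : Finset (Finset GolayPt)} (hS : S ∈ sextets) {t : Equiv.Perm GolayPt} (ht : t ∈ M24)
    (ht2 : t * t = 1) (ht0 : ∀ a, t a ≠ a) (h : ∀ u ∈ S, u.image t = u) : t ∈ NS S := by
  refine ⟨ht, fun u hu => ⟨h u hu, fun w hw hw2 => ?_⟩⟩
  obtain ⟨a, b, hab, rfl⟩ := Finset.card_eq_two.1 hw2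
  have hcard : u.card = 4 := hS.2.1 u hu
  have hmem : ∀ x ∈ u, t x ∈ u := fun x hx => by
    rw [← h u hu]; exact Finset.mem_image_of_mem _ hx
  have hau : a ∈ u := hw (by simp)
  have hbu : b ∈ u := hw (by simp)
  have htt : ∀ x, t (t x) = x := fun x => by
    rw [← Equiv.Perm.mul_apply, ht2]; rfl
  by_cases hta : t a = b
  · left
    have htb : t b = a := by rw [← hta, htt]
    rw [Finset.image_insert, Finset.image_singleton, hta, htb]
    exact Finset.pair_comm _ _
  · right
    have htb : t b ≠ a := fun hh => hta (by rw [← hh, htt])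
    have h1 : ({a, b} : Finset GolayPt).image t ⊆ u \ {a, b} := by
      intro y hy
      rw [Finset.image_insert, Finset.image_singleton, Finset.mem_insert, Finset.mem_singleton] at hy
      rw [Finset.mem_sdiff, Finset.mem_insert, Finset.mem_singleton]
      rcases hy with rfl | rfl
      · exact ⟨hmem a hau, by rintro (hh | hh); exacts [ht0 a hh, hta hh]⟩
      · exact ⟨hmem b hbu, by rintro (hh | hh); exacts [htb hh, ht0 b hh]⟩
    apply Finset.eq_of_subset_of_card_le h1
    rw [Finset.card_sdiff_of_subset hw, hcard, hw2, Finset.card_image_of_injective _ t.injective, hw2]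

theorem loc_fpf {t : M24} (ht2 : orderOf t = 2) (ht0 : (fx t.1).card = 0) : Loc t := by
  have hto : orderOf t.1 = 2 := by rw [← ht2]; exact Subgroup.orderOf_coe t
  obtain ⟨h8, -⟩ | ⟨-, k, hk, hkt⟩ := cls2' t.2 hto
  · unfold fx at ht0
    omega
  -- the sextet
  set S := k • H94.M24Inv.U with hSdef
  have hS : S ∈ sextets := H32.Sextet.smul_sextet hk H94.M24Inv.U_mem
  have hT0 : pm T0 ∈ NS H94.M24Inv.U := by
    have h1 : pm T0 = k⁻¹ * t.1 * k := by rw [hkt]; group
    have h2 : t.1 * t.1 = 1 := by rw [← pow_two, ← hto]; exact pow_orderOf_eq_one _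
    apply mem_NS H94.M24Inv.U_mem (pm_mem T0)
    · rw [h1]
      calc k⁻¹ * t.1 * k * (k⁻¹ * t.1 * k) = k⁻¹ * (t.1 * t.1) * k := by group
        _ = 1 := by rw [h2]; group
    · intro a ha
      rw [Finset.card_eq_zero] at ht0
      have h3 : k a ∈ fx t.1 := by
        rw [mem_fx, hkt, Equiv.Perm.mul_apply, Equiv.Perm.mul_apply]
        congr 1
        rw [show k⁻¹ (k a) = a from k.symm_apply_apply a]
        exact ha
      rw [ht0] at h3
      exact absurd h3 (Finset.notMem_empty _)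
    · exact H94.M24Inv.U_fix
  have htS : t.1 ∈ NS S := by
    rw [hkt, hSdef]
    exact conj_mem hk hT0
  have hst : ∀ c ∈ M24, c * t.1 = t.1 * c → c • S = S := by
    intro c hc hct
    have h1 : (k⁻¹ * c * k) * pm T0 = pm T0 * (k⁻¹ * c * k) := by
      rw [hkt] at hct
      have h1 := congrArg (fun x => k⁻¹ * x * k) hct
      calc k⁻¹ * c * k * pm T0 = k⁻¹ * (c * (k * pm T0 * k⁻¹)) * k := by group
        _ = k⁻¹ * (k * pm T0 * k⁻¹ * c) * k := h1
        _ = pm T0 * (k⁻¹ * c * k) := by group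
    have h2 := H94.M24Inv.C_U (M24.mul_mem (M24.mul_mem (M24.inv_mem hk) hc) hk) h1
    rw [mul_smul, mul_smul, inv_smul_eq_iff] at h2
    exact h2
  have hexp : ∀ q ∈ (NS S).subgroupOf M24, q * q = 1 := fun q hq =>
    Subtype.ext (mul_self hS (Subgroup.mem_subgroupOf.1 hq))
  refine ⟨(NS S).subgroupOf M24, isPGroup_of_exp hexp, fun q hq =>
    exp_comm hexp hq (Subgroup.mem_subgroupOf.2 htS), ?_, ?_⟩
  · intro c hc q hq
    rw [Subgroup.mem_subgroupOf] at hq ⊢
    have h1 := conj_mem c.2 hq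
    rw [hst c.1 c.2 (congrArg Subtype.val hc)] at h1
    exact h1
  · intro c hc hq hodd
    obtain ⟨z, hz, hz2, hz8⟩ := exists_fixed hS
    apply Subtype.ext
    apply no_both c.2 t.2 (NS_le S hz) hto hz2 ht0 hz8 (congrArg Subtype.val hc)
    · exact (congrArg Subtype.val (hq ⟨z, NS_le S hz⟩ (Subgroup.mem_subgroupOf.2 hz))).symm
    · rw [Subgroup.orderOf_coe]; exact hodd

theorem fx_octad {t : Equiv.Perm GolayPt} (ht : t ∈ M24) (ht2 : orderOf t = 2) (h : (fx t).card ≠ 0) :
    fx t ∈ octads := by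
  rcases Cfsg.Agent.S5394.result.1 t ht ht2 with h1 | h1
  · exact h1
  · exfalso
    apply h
    rw [Finset.card_eq_zero, fx, Finset.filter_eq_empty_iff]
    exact fun a _ => h1 a

theorem loc24 (t : M24) (ht2 : orderOf t = 2) : Loc t := by
  by_cases h : (fx t.1).card = 0
  · exact loc_fpf ht2 h
  · have hto : orderOf t.1 = 2 := by rw [← ht2]; exact Subgroup.orderOf_coe t
    apply loc_octad le_rfl t (by rw [← pow_two, ← ht2]; exact pow_orderOf_eq_one _) (fx_octad t.2 hto h)
    exact fun g hg => (mem_oFix.1 hg).1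

theorem loc22 (t : Spor.M22) (ht2 : orderOf t = 2) : Loc t := by
  have hle : Spor.M22 ≤ M24 := fun g hg => hg.1.1
  have hto : orderOf t.1 = 2 := by rw [← ht2]; exact Subgroup.orderOf_coe t
  have h1 : (none : GolayPt) ∈ fx t.1 := by
    rw [mem_fx]; exact t.2.1.2
  have h2 : (some 0 : GolayPt) ∈ fx t.1 := by
    rw [mem_fx]; exact t.2.2
  have h : (fx t.1).card ≠ 0 := Finset.card_ne_zero_of_mem h1
  apply loc_octad hle t (by rw [← pow_two, ← ht2]; exact pow_orderOf_eq_one _) (fx_octad (hle t.2) hto h)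
  intro g hg
  rw [mem_oFix] at hg
  exact ⟨⟨hg.1, hg.2 _ h1⟩, hg.2 _ h2⟩

end H32.M24Loc
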