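import Cfsg.Agent.Lib.H94.M24Inv
import Cfsg.Agent.Lib.H9.OctadStab
import Cfsg.Agent.Lib.H32.NCLem

/-!
Elements of prime order in `M24` and `M22`: numbers of fixed points, centralizers.
-/

set_option autoImplicit false
set_option linter.style.haveILetI false

namespace H32.M24Prime

open Cfsg H8.GolayCode H8.GolayCount H8.GolayBasic H8.M24Mem H8.M24Trans H32.M24Kit H32.M24Ext
open H94.M24Fix H94.M24Cls
open scoped Pointwise

/-- the fixed points -/
def fx (g : Equiv.Perm GolayPt) : Finset GolayPt := Finset.univ.filter fun p => g p = p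

theorem mem_fx {g : Equiv.Perm GolayPt} {a : GolayPt} : a ∈ fx g ↔ g a = a := by simp [fx]

theorem card_inv_mod {α : Type*} [DecidableEq α] {g : Equiv.Perm α} {p : ℕ} (hp : p.Prime)
    (ho : g ^ p = 1) {s : Finset α} (hs : ∀ a ∈ s, g a ∈ s) :
    s.card ≡ (s.filter fun a => g a = a).card [MOD p] := by
  classical
  haveI := Fact.mk hp
  let f : Function.End s := fun a => ⟨g a, hs a a.2⟩
  have hit : ∀ n : ℕ, ∀ a : s, (((f ^ n : Function.End s) a : s) : α) = (g ^ n) a := by
    intro n
    induction n with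
    | zero => intro a; rfl
    | succ n ih =>
      intro a
      rw [pow_succ', pow_succ']
      show ((f ((f ^ n : Function.End s) a) : s) : α) = _
      show g (((f ^ n : Function.End s) a : s) : α) = _
      rw [ih, Equiv.Perm.mul_apply]
  have hf : f ^ p ^ 1 = 1 := by
    rw [pow_one]
    funext a
    apply Subtype.ext
    rw [hit, ho]; rfl
  have h := Equiv.Perm.card_fixedPoints_modEq hf
  rw [Fintype.card_coe] at h
  refine h.trans ?_
  have h2 : Fintype.card (Function.fixedPoints f) = (s.filter fun a => g a = a).card := by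
    rw [← Fintype.card_coe]
    apply Fintype.card_congr
    refine ⟨fun a => ⟨a.1.1, ?_⟩, fun a => ⟨⟨a.1, (Finset.mem_filter.1 a.2).1⟩, ?_⟩, fun a => rfl, fun a => rfl⟩
    · rw [Finset.mem_filter]
      exact ⟨a.1.2, congrArg Subtype.val a.2⟩
    · exact Subtype.ext (Finset.mem_filter.1 a.2).2
  rw [h2]

theorem fx_comm {c x : Equiv.Perm GolayPt} {p : ℕ} (hp : p.Prime) (h : c * x = x * c) (hx : x ^ p = 1) :
    (fx c).card ≡ (fx c ∩ fx x).card [MOD p] := by
  have h1 : ∀ a ∈ fx c, x a ∈ fx c := by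
    intro a ha
    rw [mem_fx] at ha ⊢
    have := congrArg (fun f : Equiv.Perm GolayPt => f a) h
    simp only [Equiv.Perm.mul_apply] at this
    rw [this, ha]
  have h2 := card_inv_mod hp hx h1
  have h3 : ((fx c).filter fun a => x a = a) = fx c ∩ fx x := by
    ext a
    rw [Finset.mem_filter, Finset.mem_inter, mem_fx, mem_fx]
  rwa [h3] at h2

theorem card_univ24 : (Finset.univ : Finset GolayPt).card = 24 := by
  rw [Finset.card_univ]; rfl

theorem fx_mod {x : Equiv.Perm GolayPt} {p : ℕ} (hp : p.Prime) (hx : x ^ p = 1) :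
    24 ≡ (fx x).card [MOD p] := by
  have := card_inv_mod hp hx (s := Finset.univ) (fun _ _ => Finset.mem_univ _)
  rwa [card_univ24] at this

/-- elements of prime order at least 5 have at most four fixed points -/
theorem fx_le {x : Equiv.Perm GolayPt} (hx : x ∈ M24) {p : ℕ} (hp : p.Prime) (h5 : 5 ≤ p)
    (ho : orderOf x = p) : (fx x).card ≤ 4 := by
  by_contra hcon
  push Not at hcon
  obtain ⟨A, hA, hA5⟩ := Finset.exists_subset_card_eq (show 5 ≤ (fx x).card from hcon)
  obtain ⟨o, ho1, hAo⟩ := exists_octad hA5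
  have hxp : x ^ p = 1 := by rw [← ho]; exact pow_orderOf_eq_one x
  have himg : o.image x = o := by
    have h1 : o.image x ∈ octads := (H32.Sextet.image_mem_octads hx).2 ho1
    apply H9.OctadStab.five_mem h1 ho1 A hA5.ge
    intro a ha
    refine ⟨?_, hAo ha⟩
    rw [Finset.mem_image]
    exact ⟨a, hAo ha, mem_fx.1 (hA ha)⟩
  have h8 : o.card = 8 := (mem_octads.1 ho1).2
  have h1 := card_inv_mod hp hxp (s := o) (fun a ha => by
    rw [← himg]; exact Finset.mem_image_of_mem _ ha)
  have h2 : A ⊆ o.filter fun a => x a = a := fun a ha =>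
    Finset.mem_filter.2 ⟨hAo ha, mem_fx.1 (hA ha)⟩
  have h3 := Finset.card_le_card h2
  have h4 : (o.filter fun a => x a = a).card ≤ 8 := h8 ▸ Finset.card_filter_le _ _
  rw [h8] at h1
  have h5' : (o.filter fun a => x a = a).card = 8 := by
    have h6 : (8 - (o.filter fun a => x a = a).card) = 0 := by
      by_contra h0
      have h7 := (Nat.modEq_iff_dvd' h4).1 h1.symm
      have h8' := Nat.le_of_dvd (Nat.pos_of_ne_zero h0) h7
      omega
    omega
  have h6 : o.filter (fun a => x a = a) = o :=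
    Finset.eq_of_subset_of_card_le (Finset.filter_subset _ _) (by rw [h5', h8])
  have h7 : x * x = 1 := H9.OctadStab.exp_two hx ho1 (fun z hz => by
    rw [← h6] at hz; exact (Finset.mem_filter.1 hz).2)
  have h9 : orderOf x ∣ 2 := orderOf_dvd_of_pow_eq_one (by rw [pow_two, h7])
  rw [ho] at h9
  have := Nat.le_of_dvd (by norm_num) h9
  omega

theorem fx_prime {x : Equiv.Perm GolayPt} (hx : x ∈ M24) {p : ℕ} (hp : p.Prime) (h5 : 5 ≤ p)
    (ho : orderOf x = p) : (fx x).card = 24 % p := by
  have h1 := fx_le hx hp h5 ho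
  have h2 := fx_mod hp (x := x) (by rw [← ho]; exact pow_orderOf_eq_one x)
  have h3 : (fx x).card % p = (fx x).card := Nat.mod_eq_of_lt (by omega)
  rw [← h3]
  exact h2.symm

theorem fx_two {x : Equiv.Perm GolayPt} (hx : x ∈ M24) (ho : orderOf x = 2) :
    (fx x).card = 8 ∨ (fx x).card = 0 := (cls2' hx ho).imp And.left And.left

theorem fx_three {x : Equiv.Perm GolayPt} (hx : x ∈ M24) (ho : orderOf x = 3) :
    (fx x).card = 6 ∨ (fx x).card = 0 := (cls3' hx ho).imp And.left And.left

theorem primes {r : ℕ} (hr : r.Prime) (h : r ∣ 244823040) :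
    r = 2 ∨ r = 3 ∨ r = 5 ∨ r = 7 ∨ r = 11 ∨ r = 23 := by
  have h1 : r ∈ Nat.primeFactors 244823040 := Nat.mem_primeFactors.2 ⟨hr, h, by norm_num⟩
  have h2 : Nat.primeFactors 244823040 = {2, 3, 5, 7, 11, 23} := by
    rw [show 244823040 = 2 ^ 10 * (3 ^ 3 * (5 * (7 * (11 * 23)))) by norm_num]
    rw [Nat.primeFactors_mul (by norm_num) (by norm_num), Nat.primeFactors_mul (by norm_num) (by norm_num),
      Nat.primeFactors_mul (by norm_num) (by norm_num), Nat.primeFactors_mul (by norm_num) (by norm_num),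
      Nat.primeFactors_mul (by norm_num) (by norm_num),
      Nat.primeFactors_prime_pow (by norm_num) Nat.prime_two, Nat.primeFactors_prime_pow (by norm_num) Nat.prime_three,
      (by norm_num : Nat.Prime 5).primeFactors, (by norm_num : Nat.Prime 7).primeFactors,
      (by norm_num : Nat.Prime 11).primeFactors, (by norm_num : Nat.Prime 23).primeFactors]
    rfl
  rw [h2] at h1
  simpa using h1

theorem order_dvd {x : Equiv.Perm GolayPt} (hx : x ∈ M24) : orderOf x ∣ 244823040 := by
  have h1 := orderOf_dvd_natCard (⟨x, hx⟩ : M24)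
  rw [Subgroup.orderOf_mk, H8.M24Chain.card_M24] at h1
  exact h1

/-- data on a commuting pair of elements of prime order -/
theorem pair {x c : Equiv.Perm GolayPt} (hcx : c * x = x * c) {p r : ℕ} (hp : p.Prime) (hr : r.Prime)
    (ho : orderOf x = p) (hoc : orderOf c = r) :
    (fx c).card ≡ (fx c ∩ fx x).card [MOD p] ∧ (fx x).card ≡ (fx c ∩ fx x).card [MOD r] ∧
      (fx c ∩ fx x).card ≤ (fx c).card ∧ (fx c ∩ fx x).card ≤ (fx x).card := by
  refine ⟨fx_comm hp hcx (by rw [← ho]; exact pow_orderOf_eq_one x), ?_,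
    Finset.card_le_card Finset.inter_subset_left, Finset.card_le_card Finset.inter_subset_right⟩
  rw [Finset.inter_comm]
  exact fx_comm hr hcx.symm (by rw [← hoc]; exact pow_orderOf_eq_one c)

theorem cent23 {x c : Equiv.Perm GolayPt} (hx : x ∈ M24) (hc : c ∈ M24) (hcx : c * x = x * c)
    (ho : orderOf x = 23) {r : ℕ} (hr : r.Prime) (hoc : orderOf c = r) : r = 23 := by
  have h1 := fx_prime hx (by norm_num : Nat.Prime 23) (by norm_num) ho
  obtain ⟨h2, h3, h4, h5⟩ := pair hcx (by norm_num : Nat.Prime 23) hr ho hoc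
  have hd := order_dvd hc
  rw [hoc] at hd
  generalize (fx c ∩ fx x).card = a at h2 h3 h4 h5
  rw [h1] at h3 h5
  unfold Nat.ModEq at h2 h3
  rcases primes hr hd with rfl | rfl | rfl | rfl | rfl | rfl
  · rcases fx_two hc hoc with h | h <;> rw [h] at h2 h4 <;> omega
  · rcases fx_three hc hoc with h | h <;> rw [h] at h2 h4 <;> omega
  · have h := fx_prime hc hr (by norm_num) hoc
    rw [h] at h2 h4; omega
  · have h := fx_prime hc hr (by norm_num) hoc
    rw [h] at h2 h4; omega
  · have h := fx_prime hc hr (by norm_num) hoc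
    rw [h] at h2 h4; omega
  · rfl

theorem cent11 {x c : Equiv.Perm GolayPt} (hx : x ∈ M24) (hc : c ∈ M24) (hcx : c * x = x * c)
    (ho : orderOf x = 11) {r : ℕ} (hr : r.Prime) (hoc : orderOf c = r) (h2r : r ≠ 2) : r = 11 := by
  have h1 := fx_prime hx (by norm_num : Nat.Prime 11) (by norm_num) ho
  obtain ⟨h2, h3, h4, h5⟩ := pair hcx (by norm_num : Nat.Prime 11) hr ho hoc
  have hd := order_dvd hc
  rw [hoc] at hd
  generalize (fx c ∩ fx x).card = a at h2 h3 h4 h5
  rw [h1] at h3 h5
  unfold Nat.ModEq at h2 h3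
  rcases primes hr hd with rfl | rfl | rfl | rfl | rfl | rfl
  · exact absurd rfl h2r
  · rcases fx_three hc hoc with h | h <;> rw [h] at h2 h4 <;> omega
  · have h := fx_prime hc hr (by norm_num) hoc
    rw [h] at h2 h4; omega
  · have h := fx_prime hc hr (by norm_num) hoc
    rw [h] at h2 h4; omega
  · rfl
  · have h := fx_prime hc hr (by norm_num) hoc
    rw [h] at h2 h4; omega

theorem cent5 {x c : Equiv.Perm GolayPt} (hx : x ∈ M24) (hc : c ∈ M24) (hcx : c * x = x * c)
    (ho : orderOf x = 5) {r : ℕ} (hr : r.Prime) (hoc : orderOf c = r) :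
    r = 5 ∨ (r = 2 ∧ (fx c ∩ fx x).card = 0) ∨ (r = 3 ∧ (fx c ∩ fx x).card = 1) := by
  have h1 := fx_prime hx (by norm_num : Nat.Prime 5) (by norm_num) ho
  obtain ⟨h2, h3, h4, h5⟩ := pair hcx (by norm_num : Nat.Prime 5) hr ho hoc
  have hd := order_dvd hc
  rw [hoc] at hd
  generalize (fx c ∩ fx x).card = a at h2 h3 h4 h5 ⊢
  rw [h1] at h3 h5
  unfold Nat.ModEq at h2 h3
  rcases primes hr hd with rfl | rfl | rfl | rfl | rfl | rfl
  · rcases fx_two hc hoc with h | h <;> rw [h] at h2 h4 <;> omega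
  · rcases fx_three hc hoc with h | h <;> rw [h] at h2 h4 <;> omega
  · exact Or.inl rfl
  · have h := fx_prime hc hr (by norm_num) hoc
    rw [h] at h2 h4; omega
  · have h := fx_prime hc hr (by norm_num) hoc
    rw [h] at h2 h4; omega
  · have h := fx_prime hc hr (by norm_num) hoc
    rw [h] at h2 h4; omega

/-- centralizers of elements of order 5, 7, 11 in the two-point group -/
theorem cent_two_pt {x c : Equiv.Perm GolayPt} (hx : x ∈ M24) (hc : c ∈ M24) (hcx : c * x = x * c)
    {p : ℕ} (hp : p = 5 ∨ p = 7 ∨ p = 11) (ho : orderOf x = p) {r : ℕ} (hr : r.Prime) (hoc : orderOf c = r)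
    (h2pt : 2 ≤ (fx c ∩ fx x).card) : r = p := by
  have hpp : p.Prime := by rcases hp with rfl | rfl | rfl <;> norm_num
  have h1 := fx_prime hx hpp (by omega) ho
  obtain ⟨h2, h3, h4, h5⟩ := pair hcx hpp hr ho hoc
  have hd := order_dvd hc
  rw [hoc] at hd
  generalize (fx c ∩ fx x).card = a at h2 h3 h4 h5 h2pt
  rw [h1] at h3 h5
  unfold Nat.ModEq at h2 h3
  rcases primes hr hd with rfl | rfl | rfl | rfl | rfl | rfl
  · rcases fx_two hc hoc with h | h <;> rw [h] at h2 h4 <;> rcases hp with rfl | rfl | rfl <;> omega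
  · rcases fx_three hc hoc with h | h <;> rw [h] at h2 h4 <;> rcases hp with rfl | rfl | rfl <;> omega
  · have h := fx_prime hc hr (by norm_num) hoc
    rw [h] at h2 h4; rcases hp with rfl | rfl | rfl <;> omega
  · have h := fx_prime hc hr (by norm_num) hoc
    rw [h] at h2 h4; rcases hp with rfl | rfl | rfl <;> omega
  · have h := fx_prime hc hr (by norm_num) hoc
    rw [h] at h2 h4; rcases hp with rfl | rfl | rfl <;> omega
  · have h := fx_prime hc hr (by norm_num) hoc
    rw [h] at h2 h4; rcases hp with rfl | rfl | rfl <;> omega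

end H32.M24Prime
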