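import Cfsg.Agent.Lib.H18.CharOrtho
import Cfsg.Agent.Lib.H20.DefZero
import Cfsg.Agent.Lib.H82.Deg

/-!
Values of characters at elements of prime order; sums over the elements of prime order.
-/

set_option autoImplicit false
set_option linter.style.haveILetI false
open Cfsg
open scoped ComplexConjugate

namespace H32.NormP

open H18.CharBasic H18.CharOrtho

variable {G : Type*} [Group G] [Finite G]

theorem real_int {r : ℝ} (h : IsIntegral ℤ (r : ℂ)) {a b : ℤ} (hb : b ≠ 0) (hr : (b : ℝ) * r = a) :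
    ∃ n : ℤ, r = n := by
  have h1 : r = ((a / b : ℚ) : ℝ) := by
    push_cast
    have : (b : ℝ) ≠ 0 := by exact_mod_cast hb
    field_simp
    linarith
  have h2 : IsIntegral ℤ (((a / b : ℚ) : ℂ)) := by
    have h3 : (((a / b : ℚ) : ℂ)) = (r : ℂ) := by
      rw [h1]; push_cast; rfl
    rw [h3]; exact h
  obtain ⟨n, hn⟩ := H82.Deg.exists_int_of_isIntegral_rat h2
  refine ⟨n, ?_⟩
  rw [h1, hn]; push_cast; rfl

theorem normSq_integral {χ : G → ℂ} (hχ : IsCharacter G χ) (x : G) :
    IsIntegral ℤ ((Complex.normSq (χ x) : ℝ) : ℂ) := by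
  rw [← Complex.mul_conj, ← char_inv hχ]
  exact (char_isIntegral hχ x).mul (char_isIntegral hχ _)

/-- sums over a subgroup of prime order -/
theorem sum_zpowers {x : G} [Fintype (Subgroup.zpowers x)] {p : ℕ} (hp : p.Prime) (hx : orderOf x = p)
    (f : G → ℂ) :
    ∑ y : Subgroup.zpowers x, f y = f 1 + ∑ k ∈ Finset.Ico 1 p, f (x ^ k) := by
  have h1 : ∑ y : Subgroup.zpowers x, f y = ∑ k ∈ Finset.range p, f (x ^ k) := by
    symm
    apply Finset.sum_bij (fun (k : ℕ) _ => (⟨x ^ k, Subgroup.npow_mem_zpowers x k⟩ : Subgroup.zpowers x))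
    · intro k _; exact Finset.mem_univ _
    · intro a ha b hb hab
      rw [Subtype.mk.injEq] at hab
      rw [Finset.mem_range] at ha hb
      exact pow_injOn_Iio_orderOf (by simpa [hx] using ha) (by simpa [hx] using hb) hab
    · rintro ⟨y, hy⟩ _
      have hy' := hy
      rw [← mem_powers_iff_mem_zpowers] at hy'
      obtain ⟨k, hk⟩ := hy'
      refine ⟨k % p, Finset.mem_range.2 (Nat.mod_lt _ hp.pos), ?_⟩
      apply Subtype.ext
      show x ^ (k % p) = y
      rw [← hx, pow_mod_orderOf]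
      exact hk
    · intro k _; rfl
  rw [h1, Finset.range_eq_Ico, Finset.sum_eq_sum_Ico_succ_bot hp.pos, pow_zero]

/-- The value at an element of prime order all of whose powers are conjugate to it or its inverse. -/
theorem normSq_prime {χ : G → ℂ} (hχ : IsCharacter G χ) {x : G} {p : ℕ} (hp : p.Prime)
    (hx : orderOf x = p)
    (hc : ∀ k : ℕ, ¬ p ∣ k → IsConj (x ^ k) x ∨ IsConj (x ^ k) x⁻¹) {d : ℕ} (hd : χ 1 = d) :
    ∃ n : ℕ, Complex.normSq (χ x) = n ∧ n ≡ d ^ 2 [MOD p] := by
  haveI := Fintype.ofFinite (Subgroup.zpowers x)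
  have hcl := isClassFunction_of_isCharacter hχ
  have hres : IsCharacter (Subgroup.zpowers x) (fun y : Subgroup.zpowers x => χ y) :=
    isCharacter_restrict _ hχ
  obtain ⟨m, hm⟩ := inner_char_natCast hres hres
  have hval : ∀ k : ℕ, ¬ p ∣ k → Complex.normSq (χ (x ^ k)) = Complex.normSq (χ x) := by
    intro k hk
    rcases hc k hk with h | h
    · rw [classFunction_isConj hcl h]
    · rw [classFunction_isConj hcl h, char_inv hχ, Complex.normSq_conj]
  have h1 : ((p : ℂ))⁻¹ * ∑ y : Subgroup.zpowers x, χ y * conj (χ y) = m := by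
    rw [← hm, classInner, Nat.card_zpowers, hx]
  have hp0 : (p : ℂ) ≠ 0 := by exact_mod_cast hp.ne_zero
  have h2 : ∑ y : Subgroup.zpowers x, χ y * conj (χ y) = (p : ℂ) * m := by
    rw [← h1, mul_inv_cancel_left₀ hp0]
  rw [sum_zpowers hp hx (fun y => χ y * conj (χ y))] at h2
  have h3 : ∑ k ∈ Finset.Ico 1 p, χ (x ^ k) * conj (χ (x ^ k)) =
      ((p - 1 : ℕ) : ℂ) * (Complex.normSq (χ x) : ℂ) := by
    rw [Finset.sum_congr rfl (g := fun _ => (Complex.normSq (χ x) : ℂ)), Finset.sum_const,
      Nat.card_Ico, nsmul_eq_mul]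
    intro k hk
    rw [Finset.mem_Ico] at hk
    rw [Complex.mul_conj, hval k (fun h => absurd (Nat.le_of_dvd (by omega) h) (by omega))]
  rw [h3, hd, Complex.conj_natCast] at h2
  have h4 : ((d : ℝ) * d + ((p - 1 : ℕ) : ℝ) * Complex.normSq (χ x)) = (p : ℝ) * m := by
    exact_mod_cast h2
  have hp2 := hp.two_le
  obtain ⟨n, hn⟩ := real_int (normSq_integral hχ x) (a := (p : ℤ) * m - d * d) (b := (p : ℤ) - 1)
    (by omega) (by
      push_cast
      have : ((p - 1 : ℕ) : ℝ) = (p : ℝ) - 1 := by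
        rw [Nat.cast_sub hp.one_lt.le]; simp
      rw [this] at h4
      linarith)
  have hn0 : 0 ≤ n := by
    have : (0 : ℝ) ≤ n := by rw [← hn]; exact Complex.normSq_nonneg _
    exact_mod_cast this
  lift n to ℕ using hn0
  refine ⟨n, by rw [hn]; simp, ?_⟩
  have h5 : ((d : ℤ) * d + ((p : ℤ) - 1) * n) = (p : ℤ) * m := by
    have : ((p - 1 : ℕ) : ℝ) = (p : ℝ) - 1 := by
      rw [Nat.cast_sub hp.one_lt.le]; simp
    rw [this, hn] at h4
    exact_mod_cast h4
  rw [← Int.natCast_modEq_iff, Int.modEq_iff_dvd]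
  refine ⟨m - n, ?_⟩
  push_cast
  linear_combination h5

theorem mem_zpowers_of_order {x : G} {p : ℕ} (hp : p.Prime) (hx : orderOf x = p) {P : Subgroup G}
    (hP : Nat.card P = p) (hxP : x ∈ P) : P = Subgroup.zpowers x := by
  symm
  apply Subgroup.eq_of_le_of_card_ge (by rwa [Subgroup.zpowers_le])
  rw [hP, Nat.card_zpowers, hx]

/-- The sum of a class function over the elements of prime order `p`, when the Sylow
`p`-subgroups have order `p`. -/
theorem sum_order [Fintype G] {f : G → ℂ} (hf : IsClassFunction G f) {p : ℕ} (hp : p.Prime)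
    (hS : (Nat.card G).factorization p = 1) {x : G} (hx : orderOf x = p) :
    haveI := Fact.mk hp
    ∑ g : G with orderOf g = p, f g = (Nat.card (Sylow p G) : ℂ) * ∑ k ∈ Finset.Ico 1 p, f (x ^ k) := by
  classical
  haveI := Fact.mk hp
  haveI : Fintype (Sylow p G) := Fintype.ofFinite _
  have hcard : ∀ P : Sylow p G, Nat.card P = p := fun P => by
    rw [P.card_eq_multiplicity, hS, pow_one]
  have hsyl : ∀ g : G, orderOf g = p → ∃ P : Sylow p G, g ∈ (P : Subgroup G) := by
    intro g hg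
    obtain ⟨P, hP⟩ := (IsPGroup.of_card (n := 1) (p := p) (G := Subgroup.zpowers g)
      (by rw [Nat.card_zpowers, hg, pow_one])).exists_le_sylow
    exact ⟨P, hP (Subgroup.mem_zpowers g)⟩
  choose! Φ hΦ using hsyl
  have huniq : ∀ (P : Sylow p G) (g : G), orderOf g = p → (Φ g = P ↔ g ∈ (P : Subgroup G)) := by
    intro P g hg
    constructor
    · rintro rfl; exact hΦ g hg
    · intro h
      apply Sylow.ext
      rw [mem_zpowers_of_order hp hg (hcard P) h, mem_zpowers_of_order hp hg (hcard (Φ g)) (hΦ g hg)]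
  rw [← Finset.sum_fiberwise_of_maps_to (g := Φ) (t := Finset.univ) (fun _ _ => Finset.mem_univ _)]
  have hinner : ∀ P : Sylow p G, ∑ g ∈ (Finset.univ.filter fun g : G => orderOf g = p) with Φ g = P, f g =
      ∑ k ∈ Finset.Ico 1 p, f (x ^ k) := by
    intro P
    -- conjugate of `x` lies in `P`
    obtain ⟨c, hc⟩ := MulAction.exists_smul_eq G (Φ x) P
    have hxc : c * x * c⁻¹ ∈ (P : Subgroup G) := by
      rw [← hc]
      exact ⟨x, hΦ x hx, rfl⟩
    have hoc : orderOf (c * x * c⁻¹) = p := by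
      rw [← hx]
      exact (MulAut.conj c).orderOf_eq x
    have hPz := mem_zpowers_of_order hp hoc (hcard P) hxc
    have h1 : ∀ k, f ((c * x * c⁻¹) ^ k) = f (x ^ k) := by
      intro k
      rw [conj_pow]
      exact hf _ _
    rw [← Finset.sum_congr rfl (fun k _ => h1 k)]
    symm
    apply Finset.sum_bij (fun k _ => (c * x * c⁻¹) ^ k)
    · intro k hk
      rw [Finset.mem_Ico] at hk
      have hok : orderOf ((c * x * c⁻¹) ^ k) = p := by
        rw [orderOf_pow, hoc, Nat.Coprime.gcd_eq_one, Nat.div_one]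
        exact (Nat.Prime.coprime_iff_not_dvd hp).2 (fun h => absurd (Nat.le_of_dvd (by omega) h) (by omega))
      rw [Finset.mem_filter, Finset.mem_filter]
      refine ⟨⟨Finset.mem_univ _, hok⟩, (huniq P _ hok).2 ?_⟩
      exact Subgroup.pow_mem _ hxc k
    · intro a ha b hb hab
      rw [Finset.mem_Ico] at ha hb
      exact pow_injOn_Iio_orderOf (by simpa [hoc] using ha.2) (by simpa [hoc] using hb.2) hab
    · intro g hg
      rw [Finset.mem_filter, Finset.mem_filter] at hg
      have h2 := (huniq P g hg.1.2).1 hg.2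
      rw [hPz, ← mem_powers_iff_mem_zpowers] at h2
      obtain ⟨k, hk⟩ := h2
      have hk' : (c * x * c⁻¹) ^ (k % p) = g := by
        rw [← hoc, pow_mod_orderOf]; exact hk
      refine ⟨k % p, ?_, hk'⟩
      rw [Finset.mem_Ico]
      refine ⟨Nat.pos_of_ne_zero ?_, Nat.mod_lt _ hp.pos⟩
      intro h0
      rw [h0, pow_zero] at hk'
      rw [← hk', orderOf_one] at hg
      exact hp.one_lt.ne hg.1.2
    · intro k _; rfl
  rw [Finset.sum_congr rfl (fun P _ => hinner P), Finset.sum_const, nsmul_eq_mul, Finset.card_univ,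
    Nat.card_eq_fintype_card]

/-- The number of elements of prime order `p`. -/
theorem card_order [Fintype G] {p : ℕ} (hp : p.Prime) (hS : (Nat.card G).factorization p = 1) :
    haveI := Fact.mk hp
    (Finset.univ.filter fun g : G => orderOf g = p).card = Nat.card (Sylow p G) * (p - 1) := by
  haveI := Fact.mk hp
  have hdvd : p ∣ Nat.card G := by
    apply Nat.dvd_of_factorization_pos
    rw [hS]; exact one_ne_zero
  obtain ⟨x, hx⟩ := exists_prime_orderOf_dvd_card' p hdvd
  have h := sum_order (G := G) (f := fun _ => (1 : ℂ)) (fun _ _ => rfl) hp hS hx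
  simp only [Finset.sum_const, nsmul_eq_mul, mul_one, Nat.card_Ico] at h
  exact_mod_cast h

/-- Divisibility from the integrality of the central character. -/
theorem central_dvd {χ : G → ℂ} (hχ : IsIrrCharacter G χ) {x : G} {n d : ℕ} (hd : χ 1 = d)
    (hn : Complex.normSq (χ x) = n) :
    (Nat.card (Subgroup.centralizer ({x} : Set G)) * d) ^ 2 ∣ Nat.card G ^ 2 * n := by
  have hc := isCharacter_of_isIrr hχ
  have h1 : IsIntegral ℤ (centralChar χ x) := H20.GA.isIntegral_centralChar ⟨χ, hχ⟩ x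
  have h2 : IsIntegral ℤ (centralChar χ x⁻¹) := H20.GA.isIntegral_centralChar ⟨χ, hχ⟩ x⁻¹
  set C := Subgroup.centralizer ({x} : Set G) with hC
  have hCi : Subgroup.centralizer ({x⁻¹} : Set G) = C := by
    ext g
    rw [hC, Subgroup.mem_centralizer_singleton_iff, Subgroup.mem_centralizer_singleton_iff]
    exact (Commute.inv_right_iff (a := g) (b := x))
  have hCpos : 0 < Nat.card C := Nat.card_pos
  have hd0 : d ≠ 0 := by
    rintro rfl
    exact irr_one_ne_zero hχ (by rw [hd]; simp)
  have hidx : Nat.card C * C.index = Nat.card G := C.card_mul_index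
  have h3 := h1.mul h2
  have h4 : centralChar χ x * centralChar χ x⁻¹ =
      ((((C.index : ℝ) / d) ^ 2 * Complex.normSq (χ x) : ℝ) : ℂ) := by
    rw [centralChar, centralChar, ← hC, hCi, char_inv hc, hd]
    push_cast
    rw [← Complex.mul_conj]
    ring
  rw [h4] at h3
  obtain ⟨k, hk⟩ := real_int h3 (a := (C.index : ℤ) ^ 2 * n) (b := (d : ℤ) ^ 2)
    (pow_ne_zero _ (by exact_mod_cast hd0)) (by
      push_cast
      rw [hn]
      have : (d : ℝ) ≠ 0 := by exact_mod_cast hd0
      field_simp)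
  have hk' : ((C.index : ℤ) ^ 2 * n) = k * (d : ℤ) ^ 2 := by
    have hd' : (d : ℝ) ≠ 0 := by exact_mod_cast hd0
    rw [hn] at hk
    have : ((C.index : ℝ) ^ 2 * n) = k * (d : ℝ) ^ 2 := by
      rw [← hk]
      field_simp
    exact_mod_cast this
  rw [← Int.natCast_dvd_natCast]
  refine ⟨k, ?_⟩
  rw [← hidx]
  push_cast
  linear_combination (Nat.card C : ℤ) ^ 2 * hk'

theorem sum_normSq [Fintype G] {χ : G → ℂ} (hχ : IsIrrCharacter G χ) :
    ∑ g : G, Complex.normSq (χ g) = Nat.card G := by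
  have h := inner_irr_self hχ
  rw [inner_self_eq_sum] at h
  have h1 : (Nat.card G : ℝ)⁻¹ * ∑ g : G, ‖χ g‖ ^ 2 = 1 := by exact_mod_cast h
  have h0 : (Nat.card G : ℝ) ≠ 0 := by exact_mod_cast (Nat.card_pos (α := G)).ne'
  simp only [Complex.normSq_eq_norm_sq]
  field_simp at h1
  linarith

open Classical in
/-- The norm equation, with the elements of some orders separated. -/
theorem sum_bound [Fintype G] {χ : G → ℂ} (hχ : IsIrrCharacter G χ) {d : ℕ} (hd : χ 1 = d)
    (L : Finset ℕ) (hL : 1 ∉ L) (n : ℕ → ℕ)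
    (hn : ∀ k ∈ L, ∀ g : G, orderOf g = k → Complex.normSq (χ g) = n k) :
    ((d ^ 2 + ∑ k ∈ L, (Finset.univ.filter fun g : G => orderOf g = k).card * n k : ℕ) : ℝ) +
      ∑ g ∈ Finset.univ.filter (fun g : G => g ≠ 1 ∧ orderOf g ∉ L), Complex.normSq (χ g) =
      Nat.card G := by
  rw [← sum_normSq hχ, ← Finset.sum_filter_add_sum_filter_not Finset.univ (fun g : G => g ≠ 1 ∧ orderOf g ∉ L)
    (fun g => Complex.normSq (χ g)), add_comm]
  congr 1
  have h1 : (Finset.univ.filter fun g : G => ¬ (g ≠ 1 ∧ orderOf g ∉ L)) =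
      insert 1 (Finset.univ.filter fun g : G => orderOf g ∈ L) := by
    ext g
    simp only [Finset.mem_filter, Finset.mem_univ, true_and, Finset.mem_insert]
    tauto
  rw [h1, Finset.sum_insert (by simp [hL]), hd]
  have h2 : ∑ g ∈ (Finset.univ.filter fun g : G => orderOf g ∈ L), Complex.normSq (χ g) =
      ∑ k ∈ L, ((Finset.univ.filter fun g : G => orderOf g = k).card : ℝ) * n k := by
    rw [← Finset.sum_fiberwise_of_maps_to (g := fun g : G => orderOf g) (t := L)
      (fun g hg => (Finset.mem_filter.1 hg).2)]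
    apply Finset.sum_congr rfl
    intro k hk
    have h3 : ((Finset.univ.filter fun g : G => orderOf g ∈ L).filter fun g => orderOf g = k) =
        Finset.univ.filter fun g : G => orderOf g = k := by
      ext g
      simp only [Finset.mem_filter, Finset.mem_univ, true_and]
      constructor
      · exact fun h => h.2
      · rintro rfl; exact ⟨hk, rfl⟩
    rw [h3, Finset.sum_congr rfl (fun g hg => hn k hk g (Finset.mem_filter.1 hg).2), Finset.sum_const,
      nsmul_eq_mul]
  rw [h2, Complex.normSq_natCast]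
  push_cast
  ring

open Classical in
/-- The inequality deduced from the norm equation. -/
theorem sum_le [Fintype G] {χ : G → ℂ} (hχ : IsIrrCharacter G χ) {d : ℕ} (hd : χ 1 = d)
    (L : Finset ℕ) (hL : 1 ∉ L) (n : ℕ → ℕ)
    (hn : ∀ k ∈ L, ∀ g : G, orderOf g = k → Complex.normSq (χ g) = n k) :
    d ^ 2 + ∑ k ∈ L, (Finset.univ.filter fun g : G => orderOf g = k).card * n k ≤ Nat.card G := by
  have h := sum_bound hχ hd L hL n hn
  have h1 : 0 ≤ ∑ g ∈ Finset.univ.filter (fun g : G => g ≠ 1 ∧ orderOf g ∉ L), Complex.normSq (χ g) :=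
    Finset.sum_nonneg fun _ _ => Complex.normSq_nonneg _
  have h2 : ((d ^ 2 + ∑ k ∈ L, (Finset.univ.filter fun g : G => orderOf g = k).card * n k : ℕ) : ℝ) ≤
      (Nat.card G : ℕ) := by linarith
  exact_mod_cast h2

end H32.NormP
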