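import Cfsg.Agent.Lib.H32.M24Five
import Cfsg.Agent.Lib.H32.M24Loc
import Cfsg.Agent.Lib.H32.NormP
import Cfsg.Agent.Lib.H32.DefZ
import Cfsg.Agent.Lib.H9.M24Stab

/-!
`M22` and `M24` have a single 2-block.
-/

set_option autoImplicit false
set_option linter.style.haveILetI false

namespace H32.MathieuBlk

open Cfsg H8.GolayCode H8.GolayCount H8.GolayBasic H8.M24Mem H8.M24Trans H32.M24Kit H32.M24Ext
open H94.M24Fix H94.M24Cls H32.M24Prime H32.M24Cnt H32.M24Five H32.NormP
open H18.CharBasic H18.CharOrtho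
open scoped Pointwise ComplexConjugate

/-! ### M22 -/

theorem card22 : Nat.card Spor.M22 = 443520 := by
  rw [← H9.M24Stab.card_two (p := none) (q := some 0) (by simp)]
  apply Nat.card_congr
  refine ⟨fun g => ⟨⟨g.1, g.2.1.1⟩, g.2.1.2, g.2.2⟩, fun g => ⟨g.1.1, ⟨g.1.2, g.2.1⟩, g.2.2⟩, fun _ => rfl,
    fun _ => rfl⟩

theorem two_le_fx {c x : Spor.M22} : 2 ≤ (fx c.1 ∩ fx x.1).card := by
  have h : ({none, some 0} : Finset GolayPt) ⊆ fx c.1 ∩ fx x.1 := by
    intro a ha
    rw [Finset.mem_insert, Finset.mem_singleton] at ha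
    rw [Finset.mem_inter, mem_fx, mem_fx]
    rcases ha with rfl | rfl
    · exact ⟨c.2.1.2, x.2.1.2⟩
    · exact ⟨c.2.2, x.2.2⟩
  have h2 : ({none, some 0} : Finset GolayPt).card = 2 := by decide
  rw [← h2]
  exact Finset.card_le_card h

theorem cent22 {p : ℕ} (hp5 : p = 5 ∨ p = 7 ∨ p = 11) (hf : (Nat.card Spor.M22).factorization p = 1)
    {x : Spor.M22} (hx : orderOf x = p) :
    Nat.card (Subgroup.centralizer ((Subgroup.zpowers x : Subgroup Spor.M22) : Set Spor.M22)) = p := by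
  have hp : p.Prime := by rcases hp5 with rfl | rfl | rfl <;> norm_num
  refine cent_eq_prime hp hf (P := Subgroup.zpowers x) (by rw [Nat.card_zpowers, hx]) ?_
  intro c hc r hr ho
  exact cent_two_pt x.2.1.1 c.2.1.1 (congrArg Subtype.val (mem_cent_iff.1 hc)) hp5 (ord_coe hx) hr
    (ord_coe ho) two_le_fx

theorem e11 {x : Spor.M22} (hx : orderOf x = 11) : Nat.card (@Sylow 11 Spor.M22 _) = 8064 ∧
    ∀ j : ℕ, ¬ 11 ∣ j → IsConj (x ^ j) x ∨ IsConj (x ^ j) x⁻¹ := by
  haveI : Fact (Nat.Prime 11) := ⟨by norm_num⟩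
  have hf : (Nat.card Spor.M22).factorization 11 = 1 := by
    rw [card22]; exact fact_one (m := 40320) (by norm_num) (by norm_num) (by norm_num)
  obtain ⟨k, hk1, hk2, hk3, hk4⟩ := data hf hx (cent22 (Or.inr (Or.inr rfl)) hf hx)
  rw [card22] at hk2
  generalize Nat.card (@Sylow 11 Spor.M22 _) = n at *
  have hk : k = 1 ∨ k = 2 ∨ k = 5 ∨ k = 10 := by
    have := Nat.le_of_dvd (by norm_num) hk1
    interval_cases k <;> revert hk1 <;> decide
  rcases hk with rfl | rfl | rfl | rfl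
  · omega
  · omega
  · exact ⟨by omega, hk4 (Or.inr ⟨by norm_num, by decide⟩)⟩
  · omega

theorem e7 {x : Spor.M22} (hx : orderOf x = 7) : Nat.card (@Sylow 7 Spor.M22 _) = 21120 ∧
    ∀ j : ℕ, ¬ 7 ∣ j → IsConj (x ^ j) x ∨ IsConj (x ^ j) x⁻¹ := by
  haveI : Fact (Nat.Prime 7) := ⟨by norm_num⟩
  have hf : (Nat.card Spor.M22).factorization 7 = 1 := by
    rw [card22]; exact fact_one (m := 63360) (by norm_num) (by norm_num) (by norm_num)
  obtain ⟨k, hk1, hk2, hk3, hk4⟩ := data hf hx (cent22 (Or.inr (Or.inl rfl)) hf hx)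
  rw [card22] at hk2
  generalize Nat.card (@Sylow 7 Spor.M22 _) = n at *
  have hk : k = 1 ∨ k = 2 ∨ k = 3 ∨ k = 6 := by
    have := Nat.le_of_dvd (by norm_num) hk1
    interval_cases k <;> revert hk1 <;> decide
  rcases hk with rfl | rfl | rfl | rfl
  · omega
  · omega
  · exact ⟨by omega, hk4 (Or.inr ⟨by norm_num, by decide⟩)⟩
  · omega

theorem e5 {x : Spor.M22} (hx : orderOf x = 5) : Nat.card (@Sylow 5 Spor.M22 _) = 22176 ∧
    ∀ j : ℕ, ¬ 5 ∣ j → IsConj (x ^ j) x ∨ IsConj (x ^ j) x⁻¹ := by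
  haveI : Fact (Nat.Prime 5) := ⟨by norm_num⟩
  have hf : (Nat.card Spor.M22).factorization 5 = 1 := by
    rw [card22]; exact fact_one (m := 88704) (by norm_num) (by norm_num) (by norm_num)
  obtain ⟨k, hk1, hk2, hk3, hk4⟩ := data hf hx (cent22 (Or.inl rfl) hf hx)
  rw [card22] at hk2
  generalize Nat.card (@Sylow 5 Spor.M22 _) = n at *
  have hk : k = 1 ∨ k = 2 ∨ k = 4 := by
    have := Nat.le_of_dvd (by norm_num) hk1
    interval_cases k <;> revert hk1 <;> decide
  rcases hk with rfl | rfl | rfl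
  · omega
  · omega
  · exact ⟨by omega, hk4 (Or.inl rfl)⟩

/-! ### generalities on characters -/

variable {G : Type*} [Group G] [Finite G]

/-- `|χ|²` is a constant natural number on the elements of order `p`. -/
theorem const_order {χ : G → ℂ} (hχ : IsCharacter G χ) {p : ℕ} (hp : p.Prime)
    (hf : (Nat.card G).factorization p = 1) {d : ℕ} (hd : χ 1 = d)
    (hc : ∀ x : G, orderOf x = p → ∀ j : ℕ, ¬ p ∣ j → IsConj (x ^ j) x ∨ IsConj (x ^ j) x⁻¹) :
    ∃ n : ℕ, n ≡ d ^ 2 [MOD p] ∧ ∀ g : G, orderOf g = p → Complex.normSq (χ g) = n := by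
  haveI := Fact.mk hp
  have hcl := isClassFunction_of_isCharacter hχ
  have hdvd : p ∣ Nat.card G := by
    apply Nat.dvd_of_factorization_pos
    rw [hf]; exact one_ne_zero
  obtain ⟨x, hx⟩ := exists_prime_orderOf_dvd_card' p hdvd
  obtain ⟨n, hn1, hn2⟩ := normSq_prime hχ hp hx (hc x hx) hd
  refine ⟨n, hn2, fun g hg => ?_⟩
  obtain ⟨S, hS⟩ := exists_sylow hf (P := Subgroup.zpowers g) (by rw [Nat.card_zpowers, hg])
  obtain ⟨T, hT⟩ := exists_sylow hf (P := Subgroup.zpowers x) (by rw [Nat.card_zpowers, hx])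
  obtain ⟨c, hc'⟩ := MulAction.exists_smul_eq G S T
  have h1 : c * g * c⁻¹ ∈ Subgroup.zpowers x := by
    rw [← hT, ← hc']
    refine ⟨g, ?_, rfl⟩
    show g ∈ (S : Subgroup G)
    rw [hS]
    exact Subgroup.mem_zpowers g
  rw [← mem_powers_iff_mem_zpowers] at h1
  obtain ⟨j, hj⟩ := h1
  have hj' : ¬ p ∣ j := by
    rintro ⟨q, rfl⟩
    have : x ^ (p * q) = 1 := by rw [pow_mul, ← hx, pow_orderOf_eq_one, one_pow]
    have h2 : c * g * c⁻¹ = 1 := by rw [← hj]; exact this
    have h3 : g = 1 := by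
      have := congrArg (fun z => c⁻¹ * z * c) h2
      simpa [mul_assoc] using this
    rw [h3, orderOf_one] at hg
    exact hp.one_lt.ne hg
  have h2 : χ g = χ (x ^ j) := by
    have h3 : x ^ j = c * g * c⁻¹ := hj
    rw [h3]
    exact (hcl g c).symm
  rw [h2]
  rcases hc x hx j hj' with h | h
  · rw [classFunction_isConj hcl h, hn1]
  · rw [classFunction_isConj hcl h, char_inv hχ, Complex.normSq_conj, hn1]

/-- the sum over the non-trivial powers -/
theorem sum_pow {χ : G → ℂ} (hχ : IsCharacter G χ) {p : ℕ} (hp : p.Prime) {d : ℕ} (hd : χ 1 = d)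
    {x : G} (hx : orderOf x = p) (h1 : ∀ k : ℕ, ¬ p ∣ k → Complex.normSq (χ (x ^ k)) = 1) :
    ∃ s : ℤ, (∑ k ∈ Finset.Ico 1 p, χ (x ^ k)) = s ∧ (p : ℤ) ∣ s + d ∧ |s| ≤ (p : ℤ) - 1 := by
  haveI := Fintype.ofFinite (Subgroup.zpowers x)
  have hres : IsCharacter (Subgroup.zpowers x) (fun y : Subgroup.zpowers x => χ y) :=
    isCharacter_restrict _ hχ
  obtain ⟨m, hm⟩ := inner_char_natCast hres (isCharacter_one (G := Subgroup.zpowers x))
  have h2 : ((p : ℂ))⁻¹ * ∑ y : Subgroup.zpowers x, χ y = m := by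
    rw [← hm, classInner, Nat.card_zpowers, hx]
    simp
  have hp0 : (p : ℂ) ≠ 0 := by exact_mod_cast hp.ne_zero
  have h3 : ∑ y : Subgroup.zpowers x, χ y = (p : ℂ) * m := by
    rw [← h2, mul_inv_cancel_left₀ hp0]
  rw [sum_zpowers hp hx χ, hd] at h3
  have h4 : (∑ k ∈ Finset.Ico 1 p, χ (x ^ k)) = ((p * m - d : ℤ) : ℂ) := by
    push_cast
    rw [← h3]; ring
  refine ⟨p * m - d, h4, ⟨m, by ring⟩, ?_⟩
  have h5 : ‖∑ k ∈ Finset.Ico 1 p, χ (x ^ k)‖ ≤ ∑ k ∈ Finset.Ico 1 p, ‖χ (x ^ k)‖ := norm_sum_le _ _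
  have h6 : ∑ k ∈ Finset.Ico 1 p, ‖χ (x ^ k)‖ = (p - 1 : ℕ) := by
    rw [Finset.sum_congr rfl (g := fun _ => (1 : ℝ)), Finset.sum_const, Nat.card_Ico, nsmul_eq_mul, mul_one]
    intro k hk
    rw [Finset.mem_Ico] at hk
    have h7 := h1 k (fun h => absurd (Nat.le_of_dvd (by omega) h) (by omega))
    rw [Complex.normSq_eq_norm_sq] at h7
    have h8 : (0 : ℝ) ≤ ‖χ (x ^ k)‖ := norm_nonneg _
    nlinarith
  rw [h6, h4] at h5
  rw [Complex.norm_intCast] at h5
  have h9 : ((p - 1 : ℕ) : ℝ) = (((p : ℤ) - 1 : ℤ) : ℝ) := by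
    rw [Nat.cast_sub hp.one_lt.le]; simp
  rw [h9] at h5
  exact_mod_cast h5

theorem deg_facts (χ : IrrCharacter G) : ((χ : G → ℂ) 1 = charDegree (χ : G → ℂ)) ∧
    charDegree (χ : G → ℂ) ∣ Nat.card G ∧ charDegree (χ : G → ℂ) ^ 2 ≤ Nat.card G := by
  have h1 := (H20.Defect.charDegree_irr χ).symm
  refine ⟨h1, H20.Defect.charDegree_dvd_card χ, ?_⟩
  haveI := Fintype.ofFinite G
  have h := sum_le χ.2 h1 ∅ (by simp) (fun _ => 0) (by simp)
  simpa using h

theorem blocks_of_no_defect_zero {M : Ideal AlgInt} (hM : IsPModular 2 M)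
    (hL : ∀ t : G, orderOf t = 2 → M24Loc.Loc t)
    (h0 : ∀ χ : IrrCharacter G, (charDegree (χ : G → ℂ)).factorization 2 ≠ (Nat.card G).factorization 2)
    (χ ψ : IrrCharacter G) : SameBlock M (χ : G → ℂ) (ψ : G → ℂ) := by
  haveI := H20.Loc.pm_isPrime hM
  have h1 : ∀ χ : IrrCharacter G, χ ∈ principalBlock M G := fun χ =>
    (DefZ.principal_or_full hM hL χ).resolve_right (h0 χ)
  exact H20.Blk.sameBlock_trans (H20.Blk.sameBlock_symm (h1 χ)) (h1 ψ)

theorem two_pow {n m k : ℕ} (h : n = 2 ^ k * m) (hm : ¬ 2 ∣ m) : n.factorization 2 = k := by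
  have hm0 : m ≠ 0 := by rintro rfl; exact hm (dvd_zero _)
  rw [h, Nat.factorization_mul (by positivity) hm0, Finsupp.add_apply, Nat.Prime.factorization_pow Nat.prime_two,
    Finsupp.single_eq_same, Nat.factorization_eq_zero_of_not_dvd hm, add_zero]

/-- the possible degrees -/
theorem deg_mul {χ : IrrCharacter G} {k : ℕ}
    (h : (charDegree (χ : G → ℂ)).factorization 2 = k) : ∃ m, charDegree (χ : G → ℂ) = 2 ^ k * m := by
  have h1 : 2 ^ k ∣ charDegree (χ : G → ℂ) :=
    (Nat.prime_two.pow_dvd_iff_le_factorization (H20.Defect.charDegree_ne_zero χ)).2 h.ge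
  exact h1

theorem no24 (χ : IrrCharacter M24) :
    (charDegree (χ : M24 → ℂ)).factorization 2 ≠ (Nat.card M24).factorization 2 := by
  classical
  intro h
  haveI := Fintype.ofFinite M24
  rw [card24, two_pow (n := 244823040) (m := 239085) (k := 10) (by norm_num) (by norm_num)] at h
  obtain ⟨m, hm⟩ := deg_mul h
  obtain ⟨hd, hdvd, hsq⟩ := deg_facts χ
  rw [card24] at hdvd hsq
  have hχ := isCharacter_of_isIrr χ.2
  generalize hdd : charDegree (χ : M24 → ℂ) = d at *
  have f5 := hf5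
  have f7 : (Nat.card M24).factorization 7 = 1 := by
    rw [card24]; exact fact_one (m := 34974720) (by norm_num) (by norm_num) (by norm_num)
  have f11 : (Nat.card M24).factorization 11 = 1 := by
    rw [card24]; exact fact_one (m := 22256640) (by norm_num) (by norm_num) (by norm_num)
  have f23 : (Nat.card M24).factorization 23 = 1 := by
    rw [card24]; exact fact_one (m := 10644480) (by norm_num) (by norm_num) (by norm_num)
  obtain ⟨n5, c5, v5⟩ := const_order hχ (by norm_num : Nat.Prime 5) f5 hd (fun x hx => (d5 hx).2.1)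
  obtain ⟨n7, c7, v7⟩ := const_order hχ (by norm_num : Nat.Prime 7) f7 hd (fun x hx => (d7 hx).2)
  obtain ⟨n11, c11, v11⟩ := const_order hχ (by norm_num : Nat.Prime 11) f11 hd (fun x hx => (d11 hx).2)
  obtain ⟨n23, c23, v23⟩ := const_order hχ (by norm_num : Nat.Prime 23) f23 hd (fun x hx => (d23 hx).2)
  have el : ∀ p : ℕ, p.Prime → (Nat.card M24).factorization p = 1 → ∃ x : M24, orderOf x = p := by
    intro p hp hf
    haveI := Fact.mk hp
    apply exists_prime_orderOf_dvd_card' p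
    apply Nat.dvd_of_factorization_pos
    rw [hf]; exact one_ne_zero
  obtain ⟨x5, hx5⟩ := el 5 (by norm_num) f5
  obtain ⟨x7, hx7⟩ := el 7 (by norm_num) f7
  obtain ⟨x11, hx11⟩ := el 11 (by norm_num) f11
  obtain ⟨x23, hx23⟩ := el 23 (by norm_num) f23
  have N5 := card_order (G := M24) (by norm_num : Nat.Prime 5) f5
  have N7 := card_order (G := M24) (by norm_num : Nat.Prime 7) f7
  have N11 := card_order (G := M24) (by norm_num : Nat.Prime 11) f11
  have N23 := card_order (G := M24) (by norm_num : Nat.Prime 23) f23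
  rw [(d5 hx5).1] at N5
  rw [(d7 hx7).1] at N7
  rw [(d11 hx11).1] at N11
  rw [(d23 hx23).1] at N23
  have hle := sum_le χ.2 hd {5, 7, 11, 23} (by decide)
    (fun k => if k = 5 then n5 else if k = 7 then n7 else if k = 11 then n11 else n23) (by
      intro k hk g hg
      simp only [Finset.mem_insert, Finset.mem_singleton] at hk
      rcases hk with rfl | rfl | rfl | rfl
      · simpa using v5 g hg
      · simpa using v7 g hg
      · simpa using v11 g hg
      · simpa using v23 g hg)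
  rw [Finset.sum_insert (by decide), Finset.sum_insert (by decide), Finset.sum_insert (by decide),
    Finset.sum_singleton, card24] at hle
  simp only [N5, N7, N11, N23, if_true, show (7 : ℕ) ≠ 5 by decide, show (11 : ℕ) ≠ 5 by decide,
    show (11 : ℕ) ≠ 7 by decide, show (23 : ℕ) ≠ 5 by decide, show (23 : ℕ) ≠ 7 by decide,
    show (23 : ℕ) ≠ 11 by decide, if_false] at hle
  have hdiv := central_dvd χ.2 (x := x5) hd (v5 x5 hx5)
  rw [(d5 hx5).2.2, card24] at hdiv
  subst hm
  have hm15 : m ≤ 15 := by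
    by_contra hc
    push Not at hc
    have : (2 ^ 10 * 16) ^ 2 ≤ (2 ^ 10 * m) ^ 2 := Nat.pow_le_pow_left (by omega) 2
    omega
  unfold Nat.ModEq at c5 c7 c11 c23
  have hm0 : m ≠ 0 := by rintro rfl; exact H20.Defect.charDegree_ne_zero χ (by rw [hdd]; rfl)
  interval_cases m
  · omega
  · -- 1024
    have h16 : 16 ∣ n5 := by
      have h1 : 2 ^ 20 * (60 ^ 2) ∣ (2 ^ 16 * (15939 ^ 2 * n5)) * 60 ^ 2 := by
        have e1 : 2 ^ 20 * (60 ^ 2) = (60 * (2 ^ 10 * 1)) ^ 2 := by norm_num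
        have e2 : (2 ^ 16 * (15939 ^ 2 * n5)) * 60 ^ 2 = 244823040 ^ 2 * n5 := by ring
        rw [e1, e2]
        exact hdiv
      have h2 : 2 ^ 20 ∣ 2 ^ 16 * (15939 ^ 2 * n5) := Nat.dvd_of_mul_dvd_mul_right (by norm_num) h1
      have h3 : 2 ^ 16 * 16 ∣ 2 ^ 16 * (15939 ^ 2 * n5) := by
        have e1 : 2 ^ 16 * 16 = 2 ^ 20 := by norm_num
        rw [e1]
        exact h2
      have h4 : 16 ∣ 15939 ^ 2 * n5 := Nat.dvd_of_mul_dvd_mul_left (by norm_num) h3
      exact (Nat.Coprime.dvd_mul_left (by norm_num : Nat.Coprime 16 (15939 ^ 2))).1 h4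
    omega
  all_goals omega

theorem no22 (χ : IrrCharacter Spor.M22) :
    (charDegree (χ : Spor.M22 → ℂ)).factorization 2 ≠ (Nat.card Spor.M22).factorization 2 := by
  classical
  intro h
  haveI := Fintype.ofFinite Spor.M22
  rw [card22, two_pow (n := 443520) (m := 3465) (k := 7) (by norm_num) (by norm_num)] at h
  obtain ⟨m, hm⟩ := deg_mul h
  obtain ⟨hd, hdvd, hsq⟩ := deg_facts χ
  rw [card22] at hdvd hsq
  have hχ := isCharacter_of_isIrr χ.2
  have hcl := isClassFunction_of_isCharacter hχ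
  generalize hdd : charDegree (χ : Spor.M22 → ℂ) = d at *
  have f5 : (Nat.card Spor.M22).factorization 5 = 1 := by
    rw [card22]; exact fact_one (m := 88704) (by norm_num) (by norm_num) (by norm_num)
  have f7 : (Nat.card Spor.M22).factorization 7 = 1 := by
    rw [card22]; exact fact_one (m := 63360) (by norm_num) (by norm_num) (by norm_num)
  have f11 : (Nat.card Spor.M22).factorization 11 = 1 := by
    rw [card22]; exact fact_one (m := 40320) (by norm_num) (by norm_num) (by norm_num)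
  obtain ⟨n5, c5, v5⟩ := const_order hχ (by norm_num : Nat.Prime 5) f5 hd (fun x hx => (e5 hx).2)
  obtain ⟨n7, c7, v7⟩ := const_order hχ (by norm_num : Nat.Prime 7) f7 hd (fun x hx => (e7 hx).2)
  obtain ⟨n11, c11, v11⟩ := const_order hχ (by norm_num : Nat.Prime 11) f11 hd (fun x hx => (e11 hx).2)
  have el : ∀ p : ℕ, p.Prime → (Nat.card Spor.M22).factorization p = 1 → ∃ x : Spor.M22, orderOf x = p := by
    intro p hp hf
    haveI := Fact.mk hp
    apply exists_prime_orderOf_dvd_card' p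
    apply Nat.dvd_of_factorization_pos
    rw [hf]; exact one_ne_zero
  obtain ⟨x5, hx5⟩ := el 5 (by norm_num) f5
  obtain ⟨x7, hx7⟩ := el 7 (by norm_num) f7
  obtain ⟨x11, hx11⟩ := el 11 (by norm_num) f11
  have N5 := card_order (G := Spor.M22) (by norm_num : Nat.Prime 5) f5
  have N7 := card_order (G := Spor.M22) (by norm_num : Nat.Prime 7) f7
  have N11 := card_order (G := Spor.M22) (by norm_num : Nat.Prime 11) f11
  rw [(e5 hx5).1] at N5
  rw [(e7 hx7).1] at N7
  rw [(e11 hx11).1] at N11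
  have hval : ∀ k ∈ ({5, 7, 11} : Finset ℕ), ∀ g : Spor.M22, orderOf g = k →
      Complex.normSq ((χ : Spor.M22 → ℂ) g) = (fun k => if k = 5 then n5 else if k = 7 then n7 else n11) k := by
    intro k hk g hg
    simp only [Finset.mem_insert, Finset.mem_singleton] at hk
    rcases hk with rfl | rfl | rfl
    · simpa using v5 g hg
    · simpa using v7 g hg
    · simpa using v11 g hg
  have hle := sum_le χ.2 hd {5, 7, 11} (by decide) _ hval
  rw [Finset.sum_insert (by decide), Finset.sum_insert (by decide), Finset.sum_singleton, card22] at hle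
  simp only [N5, N7, N11, if_true, show (7 : ℕ) ≠ 5 by decide, show (11 : ℕ) ≠ 5 by decide,
    show (11 : ℕ) ≠ 7 by decide, if_false] at hle
  subst hm
  have hm5 : m ≤ 5 := by
    by_contra hc
    push Not at hc
    have : (2 ^ 7 * 6) ^ 2 ≤ (2 ^ 7 * m) ^ 2 := Nat.pow_le_pow_left (by omega) 2
    omega
  unfold Nat.ModEq at c5 c7 c11
  have hm3 : m = 3 := by
    interval_cases m
    · exact absurd hdd (H20.Defect.charDegree_ne_zero χ)
    · omega
    · exfalso; revert hdvd; norm_num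
    · rfl
    · exfalso; revert hdvd; norm_num
    · omega
  subst hm3
  have e5' : n5 = 1 := by omega
  have e7' : n7 = 1 := by omega
  have e11' : n11 = 1 := by omega
  subst e5' e7' e11'
  have hb := sum_bound χ.2 hd {5, 7, 11} (by decide) _ hval
  rw [Finset.sum_insert (by decide), Finset.sum_insert (by decide), Finset.sum_singleton, card22] at hb
  simp only [N5, N7, N11, if_true, show (7 : ℕ) ≠ 5 by decide, show (11 : ℕ) ≠ 5 by decide,
    show (11 : ℕ) ≠ 7 by decide, if_false] at hb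
  have hrest : ∀ g : Spor.M22, g ≠ 1 → orderOf g ∉ ({5, 7, 11} : Finset ℕ) → (χ : Spor.M22 → ℂ) g = 0 := by
    norm_num at hb
    rw [Finset.sum_eq_zero_iff_of_nonneg (fun _ _ => Complex.normSq_nonneg _)] at hb
    intro g hg1 hg2
    apply Complex.normSq_eq_zero.1
    apply hb g
    simp only [Finset.mem_filter, Finset.mem_univ, true_and]
    simp only [Finset.mem_insert, Finset.mem_singleton, not_or] at hg2
    exact ⟨hg1, hg2⟩
  -- the sum of all values is zero
  have hsum : ∑ g : Spor.M22, (χ : Spor.M22 → ℂ) g = 0 := by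
    have hne : (χ : Spor.M22 → ℂ) ≠ fun _ => 1 := by
      intro he
      rw [he] at hd
      norm_num at hd
    have h1 := inner_irr_ne χ.2 (isIrrCharacter_one (G := Spor.M22)) hne
    rw [classInner] at h1
    have h2 : (Nat.card Spor.M22 : ℂ)⁻¹ ≠ 0 := inv_ne_zero (by rw [card22]; norm_num)
    rcases mul_eq_zero.1 h1 with h3 | h3
    · exact absurd h3 h2
    · simpa using h3
  obtain ⟨s5, a5, b5, c5'⟩ := sum_pow hχ (by norm_num : Nat.Prime 5) hd hx5 (fun k hk => by
    rcases (e5 hx5).2 k hk with h | h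
    · rw [classFunction_isConj hcl h, v5 _ hx5]; simp
    · rw [classFunction_isConj hcl h, char_inv hχ, Complex.normSq_conj, v5 _ hx5]; simp)
  obtain ⟨s7, a7, b7, c7'⟩ := sum_pow hχ (by norm_num : Nat.Prime 7) hd hx7 (fun k hk => by
    rcases (e7 hx7).2 k hk with h | h
    · rw [classFunction_isConj hcl h, v7 _ hx7]; simp
    · rw [classFunction_isConj hcl h, char_inv hχ, Complex.normSq_conj, v7 _ hx7]; simp)
  obtain ⟨s11, a11, b11, c11'⟩ := sum_pow hχ (by norm_num : Nat.Prime 11) hd hx11 (fun k hk => by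
    rcases (e11 hx11).2 k hk with h | h
    · rw [classFunction_isConj hcl h, v11 _ hx11]; simp
    · rw [classFunction_isConj hcl h, char_inv hχ, Complex.normSq_conj, v11 _ hx11]; simp)
  have S5 := sum_order (G := Spor.M22) hcl (by norm_num : Nat.Prime 5) f5 hx5
  have S7 := sum_order (G := Spor.M22) hcl (by norm_num : Nat.Prime 7) f7 hx7
  have S11 := sum_order (G := Spor.M22) hcl (by norm_num : Nat.Prime 11) f11 hx11
  rw [(e5 hx5).1, a5] at S5
  rw [(e7 hx7).1, a7] at S7
  rw [(e11 hx11).1, a11] at S11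
  -- split the sum
  have hsplit : ∑ g : Spor.M22, (χ : Spor.M22 → ℂ) g = (χ : Spor.M22 → ℂ) 1 +
      ((∑ g : Spor.M22 with orderOf g = 5, (χ : Spor.M22 → ℂ) g) +
      ((∑ g : Spor.M22 with orderOf g = 7, (χ : Spor.M22 → ℂ) g) +
      (∑ g : Spor.M22 with orderOf g = 11, (χ : Spor.M22 → ℂ) g))) := by
    rw [Finset.sum_filter, Finset.sum_filter, Finset.sum_filter]
    have h1 : (χ : Spor.M22 → ℂ) 1 = ∑ g : Spor.M22, if g = 1 then (χ : Spor.M22 → ℂ) g else 0 := by
      rw [Finset.sum_ite_eq']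
      simp
    rw [h1, ← Finset.sum_add_distrib, ← Finset.sum_add_distrib, ← Finset.sum_add_distrib]
    apply Finset.sum_congr rfl
    intro g _
    by_cases hg1 : g = 1
    · subst hg1
      simp
    by_cases hg2 : orderOf g ∈ ({5, 7, 11} : Finset ℕ)
    · simp only [Finset.mem_insert, Finset.mem_singleton] at hg2
      rcases hg2 with h | h | h <;> simp [h, hg1]
    · rw [hrest g hg1 hg2]
      simp
  rw [hsum, S5, S7, S11, hd] at hsplit
  have hfin : (384 + (22176 * s5 + (21120 * s7 + 8064 * s11)) : ℤ) = 0 := by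
    have : ((384 + (22176 * s5 + (21120 * s7 + 8064 * s11)) : ℤ) : ℂ) = 0 := by
      push_cast
      rw [hsplit]
      push_cast
      norm_num
    exact_mod_cast this
  rw [abs_le] at c5' c7' c11'
  norm_num at b5 b7 b11 c5' c7' c11'
  have g5 : s5 = -4 ∨ s5 = 1 := by omega
  have g7 : s7 = -6 ∨ s7 = 1 := by omega
  have g11 : s11 = -10 ∨ s11 = 1 := by omega
  rcases g5 with rfl | rfl <;> rcases g7 with rfl | rfl <;> rcases g11 with rfl | rfl <;> omega

end H32.MathieuBlk
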