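import Cfsg.Agent.Lib.H32.SextetN

/-!
Orbits of a sextet stabiliser on sextets: 1, 90, 240, 1440.
-/

set_option autoImplicit false
set_option linter.constructorNameAsVariable false

namespace H32.SextetOrb

open Cfsg H8.GolayCode H8.GolayCount H8.GolayBasic H8.M24Mem H8.M24Trans H32.M24Kit H32.M24Ext H32.Sextet
open H32.SextetStab H32.OctadStab H32.SextetN
open scoped Pointwise Classical

abbrev Fam := Finset (Finset GolayPt)

/-- the tetrads of a sextet cut a set -/
theorem sum_inter {S : Fam} (hS : S ∈ sextets) (u : Finset GolayPt) : ∑ t ∈ S, (t ∩ u).card = u.card := by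
  have h1 : (S.biUnion fun t => t ∩ u).card = ∑ t ∈ S, (t ∩ u).card := by
    rw [Finset.card_biUnion]
    intro t ht t' ht' h
    exact (disjoint_of_mem hS ht ht' h).mono Finset.inter_subset_left Finset.inter_subset_left
  rw [← h1]
  refine congrArg Finset.card ?_
  ext p
  rw [Finset.mem_biUnion]
  constructor
  · rintro ⟨t, _, hp⟩
    exact (Finset.mem_inter.1 hp).2
  · intro hp
    obtain ⟨t, ht, hpt⟩ := cover hS p
    exact ⟨t, ht, Finset.mem_inter.2 ⟨hpt, hp⟩⟩

/-- the relation of `S` and `T` given by a tetrad of `T` with a property relative to `S` -/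
def Ty (P : Fam → Finset GolayPt → Prop) (S T : Fam) : Prop := ∃ u ∈ T, P S u

def P3 (S : Fam) (u : Finset GolayPt) : Prop := ∃ t ∈ S, (t ∩ u).card = 3
def P22 (S : Fam) (u : Finset GolayPt) : Prop := ∃ t ∈ S, (t ∩ u).card = 2 ∧ ∃ t' ∈ S, t ≠ t' ∧ (t' ∩ u).card = 2
def P211 (S : Fam) (u : Finset GolayPt) : Prop := ∃ t ∈ S, (t ∩ u).card = 2 ∧ ∀ t' ∈ S, t ≠ t' → (t' ∩ u).card ≠ 2

/-- two tetrads of different sextets meet in at least two points -/
theorem exists_meet {S T : Fam} (hS : S ∈ sextets) (hT : T ∈ sextets) :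
    ∃ t ∈ S, ∃ u ∈ T, 2 ≤ (t ∩ u).card := by
  by_contra hcon
  push Not at hcon
  have hle : ∀ t ∈ S, ∀ u ∈ T, (t ∩ u).card ≤ 1 := fun t ht u hu => by have := hcon t ht u hu; omega
  obtain ⟨u, hu, _⟩ := exists_two hT
  have hs := sum_inter hS u
  rw [hT.2.1 u hu] at hs
  -- a tetrad missed by `u`
  have h1 : ∃ t ∈ S, (t ∩ u).card = 0 := by
    by_contra h
    push Not at h
    have h2 : ∑ t ∈ S, (t ∩ u).card = ∑ t ∈ S, 1 := by
      apply Finset.sum_congr rfl
      intro t ht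
      have := h t ht
      have := hle t ht u hu
      omega
    rw [h2, Finset.sum_const, hS.1] at hs
    simp at hs
  obtain ⟨t, ht, htu⟩ := h1
  obtain ⟨p, hp⟩ : t.Nonempty := by rw [← Finset.card_pos, hS.2.1 t ht]; norm_num
  obtain ⟨u', hu', hpu'⟩ := cover hT p
  have htu' : (t ∩ u').card = 1 := by
    have h2 : 0 < (t ∩ u').card := Finset.card_pos.2 ⟨p, Finset.mem_inter.2 ⟨hp, hpu'⟩⟩
    have := hle t ht u' hu'
    omega
  have hne : u ≠ u' := by rintro rfl; omega
  have hs' := sum_inter hS u'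
  rw [hT.2.1 u' hu'] at hs'
  have h3 : ∃ t' ∈ S, (t' ∩ u).card = 1 ∧ (t' ∩ u').card = 1 := by
    by_contra h
    push Not at h
    have h4 : ∑ t ∈ S, ((t ∩ u).card + (t ∩ u').card) ≤ ∑ t ∈ S, 1 := by
      apply Finset.sum_le_sum
      intro x hx
      have e1 := h x hx
      have e2 := hle x hx u hu
      have e3 := hle x hx u' hu'
      by_cases e4 : (x ∩ u).card = 1
      · have := e1 e4
        omega
      · omega
    rw [Finset.sum_add_distrib, hs, hs', Finset.sum_const, hS.1] at h4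
    simp at h4
  obtain ⟨t', ht', h5, h6⟩ := h3
  have hne' : t ≠ t' := by rintro rfl; omega
  have ho := hT.2.2 u hu u' hu' hne
  have ho' := hS.2.2 t ht t' ht' hne'
  have hev := inter_even ho'.1 ho.1
  have hd := disjoint_of_mem hS ht ht' hne'
  have hd2 := disjoint_of_mem hT hu hu' hne
  have hcard : ((t ∪ t') ∩ (u ∪ u')).card = 3 := by
    have e1 : (t ∪ t') ∩ (u ∪ u') = (t ∩ u ∪ t ∩ u') ∪ (t' ∩ u ∪ t' ∩ u') := by
      rw [Finset.union_inter_distrib_right, Finset.inter_union_distrib_left, Finset.inter_union_distrib_left]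
    have e2 : ∀ x : Finset GolayPt, (x ∩ u ∪ x ∩ u').card = (x ∩ u).card + (x ∩ u').card := fun x =>
      Finset.card_union_of_disjoint (hd2.mono Finset.inter_subset_right Finset.inter_subset_right)
    rw [e1, Finset.card_union_of_disjoint, e2, e2, htu, htu', h5, h6]
    refine hd.mono ?_ ?_
    · exact Finset.union_subset Finset.inter_subset_left Finset.inter_subset_left
    · exact Finset.union_subset Finset.inter_subset_left Finset.inter_subset_left
  rw [hcard] at hev
  exact absurd hev (by decide)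

theorem ty_cases {S T : Fam} (hS : S ∈ sextets) (hT : T ∈ sextets) (hne : S ≠ T) :
    Ty P22 S T ∨ Ty P3 S T ∨ Ty P211 S T := by
  obtain ⟨t, ht, u, hu, h2⟩ := exists_meet hS hT
  have ht4 := hS.2.1 t ht
  have hu4 := hT.2.1 u hu
  have h4 : (t ∩ u).card ≤ 4 := (Finset.card_le_card Finset.inter_subset_left).trans (le_of_eq ht4)
  have h5 : (t ∩ u).card ≠ 4 := by
    intro h
    apply hne
    have e1 : t ∩ u = t := Finset.eq_of_subset_of_card_le Finset.inter_subset_left (by omega)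
    have e2 : t = u := Finset.eq_of_subset_of_card_le (Finset.inter_eq_left.1 e1) (by omega)
    rw [eq_sx hS ht, eq_sx hT hu, e2]
  by_cases h3 : (t ∩ u).card = 3
  · exact Or.inr (Or.inl ⟨u, hu, t, ht, h3⟩)
  · have h22 : (t ∩ u).card = 2 := by omega
    by_cases h6 : ∃ t' ∈ S, t ≠ t' ∧ (t' ∩ u).card = 2
    · exact Or.inl ⟨u, hu, t, ht, h22, h6⟩
    · push Not at h6
      exact Or.inr (Or.inr ⟨u, hu, t, ht, h22, h6⟩)

theorem finish {S T S' T' : Fam} (hS : S ∈ sextets) (hT : T ∈ sextets) (hS' : S' ∈ sextets)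
    (hT' : T' ∈ sextets) {t u t' u' : Finset GolayPt} (ht : t ∈ S) (hu : u ∈ T) (ht' : t' ∈ S')
    (hu' : u' ∈ T') {f : Equiv.Perm GolayPt} (hf : f ∈ M24) (h1 : t.image f = t') (h2 : u.image f = u') :
    f • S = S' ∧ f • T = T' := by
  constructor
  · rw [eq_sx hS ht, smul_sx hf (hS.2.1 t ht), h1, ← eq_sx hS' ht']
  · rw [eq_sx hT hu, smul_sx hf (hT.2.1 u hu), h2, ← eq_sx hT' hu']

theorem trans3 {S T S' T' : Fam} (hS : S ∈ sextets) (hT : T ∈ sextets) (hS' : S' ∈ sextets)
    (hT' : T' ∈ sextets) (h : Ty P3 S T) (h' : Ty P3 S' T') : ∃ f ∈ M24, f • S = S' ∧ f • T = T' := by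
  obtain ⟨u, hu, t, ht, h3⟩ := h
  obtain ⟨u', hu', t', ht', h3'⟩ := h'
  have e1 := hS.2.1 t ht
  have e2 := hT.2.1 u hu
  obtain ⟨f, hf, h4, h5⟩ := trans_pair5 (s := t) (t := u) (s' := t') (t' := u')
    (e1.trans (hS'.2.1 t' ht').symm) (e2.trans (hT'.2.1 u' hu').symm) (h3.trans h3'.symm) (by
      have := Finset.card_union_add_card_inter t u
      omega)
  exact ⟨f, hf, finish hS hT hS' hT' ht hu ht' hu' hf h4 h5⟩

theorem trans22 {S T S' T' : Fam} (hS : S ∈ sextets) (hT : T ∈ sextets) (hS' : S' ∈ sextets)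
    (hT' : T' ∈ sextets) (h : Ty P22 S T) (h' : Ty P22 S' T') : ∃ f ∈ M24, f • S = S' ∧ f • T = T' := by
  obtain ⟨u, hu, t, ht, h2, t2, ht2, hne, h3⟩ := h
  obtain ⟨u', hu', t', ht', h2', t2', ht2', hne', h3'⟩ := h'
  have sub : ∀ {S T : Fam} (_ : S ∈ sextets) (_ : T ∈ sextets) {t t2 u : Finset GolayPt} (_ : t ∈ S)
      (_ : t2 ∈ S) (_ : u ∈ T) (_ : t ≠ t2) (_ : (t ∩ u).card = 2) (_ : (t2 ∩ u).card = 2),
      t ∪ u ⊆ t ∪ t2 ∧ (t ∪ u).card = 6 := by
    intro S T hS hT t t2 u ht ht2 hu hne h2 h3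
    have e2 := hT.2.1 u hu
    have e1 := hS.2.1 t ht
    constructor
    · apply Finset.union_subset Finset.subset_union_left
      have h4 : (t ∩ u ∪ t2 ∩ u).card = 4 := by
        rw [Finset.card_union_of_disjoint, h2, h3]
        exact (disjoint_of_mem hS ht ht2 hne).mono Finset.inter_subset_left Finset.inter_subset_left
      have h5 : t ∩ u ∪ t2 ∩ u = u := by
        apply Finset.eq_of_subset_of_card_le
        · exact Finset.union_subset Finset.inter_subset_right Finset.inter_subset_right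
        · rw [h4, e2]
      conv_lhs => rw [← h5]
      exact Finset.union_subset_union Finset.inter_subset_left Finset.inter_subset_left
    · have := Finset.card_union_add_card_inter t u
      omega
  obtain ⟨s1, c1⟩ := sub hS hT ht ht2 hu hne h2 h3
  obtain ⟨s2, _⟩ := sub hS' hT' ht' ht2' hu' hne' h2' h3'
  obtain ⟨f, hf1, hf2⟩ := exists_perm2 (s := t) (t := u) (s' := t') (t' := u')
    ((hS.2.1 t ht).trans (hS'.2.1 t' ht').symm) ((hT.2.1 u hu).trans (hT'.2.1 u' hu').symm)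
    (h2.trans h2'.symm)
  obtain ⟨g, hg, hgf⟩ := ext6 f (hS.2.2 t ht t2 ht2 hne) (hS'.2.2 t' ht' t2' ht2' hne') c1 s1 (by
    rw [Finset.image_union, hf1, hf2]; exact s2)
  refine ⟨g, hg, finish hS hT hS' hT' ht hu ht' hu' hg ?_ ?_⟩
  · rw [image_eq_of_agree hgf Finset.subset_union_left, hf1]
  · rw [image_eq_of_agree hgf Finset.subset_union_right, hf2]

/-- the two further points of a (2,1,1)-tetrad -/
theorem points211 {S T : Fam} (hS : S ∈ sextets) (hT : T ∈ sextets) {t u : Finset GolayPt} (ht : t ∈ S)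
    (hu : u ∈ T) (h2 : (t ∩ u).card = 2) (h3 : ∀ t' ∈ S, t ≠ t' → (t' ∩ u).card ≠ 2) :
    ∃ c d : GolayPt, c ≠ d ∧ c ∉ t ∧ d ∉ t ∧ u \ t = {c, d} ∧ ∃ o ∈ octads, t ∪ {c} ⊆ o ∧ d ∉ o := by
  have hu4 := hT.2.1 u hu
  have h4 : (u \ t).card = 2 := by
    have := Finset.card_sdiff_add_card_inter u t
    rw [Finset.inter_comm] at this
    omega
  obtain ⟨c, d, hcd, h5⟩ := Finset.card_eq_two.1 h4
  have hc : c ∈ u ∧ c ∉ t := by
    have : c ∈ u \ t := by rw [h5]; simp
    rwa [Finset.mem_sdiff] at this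
  have hd : d ∈ u ∧ d ∉ t := by
    have : d ∈ u \ t := by rw [h5]; simp
    rwa [Finset.mem_sdiff] at this
  obtain ⟨t2, ht2, hct2⟩ := cover hS c
  have hne : t ≠ t2 := by rintro rfl; exact hc.2 hct2
  refine ⟨c, d, hcd, hc.2, hd.2, h5, t ∪ t2, hS.2.2 t ht t2 ht2 hne, ?_, ?_⟩
  · apply Finset.union_subset_union (le_refl _)
    exact Finset.singleton_subset_iff.2 hct2
  · intro hdo
    have hdt2 : d ∈ t2 := (Finset.mem_union.1 hdo).resolve_left hd.2
    apply h3 t2 ht2 hne
    have h6 : t2 ∩ u = {c, d} := by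
      rw [← h5]
      ext p
      rw [Finset.mem_inter, Finset.mem_sdiff]
      constructor
      · rintro ⟨h7, h8⟩
        exact ⟨h8, fun h9 => Finset.disjoint_left.1 (disjoint_of_mem hS ht ht2 hne) h9 h7⟩
      · rintro ⟨h7, h8⟩
        have : p ∈ ({c, d} : Finset GolayPt) := by rw [← h5]; exact Finset.mem_sdiff.2 ⟨h7, h8⟩
        rw [Finset.mem_insert, Finset.mem_singleton] at this
        rcases this with rfl | rfl
        · exact ⟨hct2, h7⟩
        · exact ⟨hdt2, h7⟩
    rw [h6, Finset.card_pair hcd]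

theorem trans211 {S T S' T' : Fam} (hS : S ∈ sextets) (hT : T ∈ sextets) (hS' : S' ∈ sextets)
    (hT' : T' ∈ sextets) (h : Ty P211 S T) (h' : Ty P211 S' T') : ∃ f ∈ M24, f • S = S' ∧ f • T = T' := by
  obtain ⟨u, hu, t, ht, h2, h3⟩ := h
  obtain ⟨u', hu', t', ht', h2', h3'⟩ := h'
  obtain ⟨c, d, hcd, hct, hdt, hcdu, o, ho, hoc, hod⟩ := points211 hS hT ht hu h2 h3
  obtain ⟨c', d', hcd', hct', hdt', hcdu', o', ho', hoc', hod'⟩ := points211 hS' hT' ht' hu' h2' h3'
  have ht4 := hS.2.1 t ht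
  have ht4' := hS'.2.1 t' ht'
  have hu4 := hT.2.1 u hu
  have hu4' := hT'.2.1 u' hu'
  obtain ⟨f, hf1, hf2⟩ := exists_perm2 (s := t) (t := u) (s' := t') (t' := u')
    (ht4.trans ht4'.symm) (hu4.trans hu4'.symm) (h2.trans h2'.symm)
  have hfcd : ({c, d} : Finset GolayPt).image f = {c', d'} := by
    rw [← hcdu, ← hcdu', image_sdiff', hf1, hf2]
  -- adjust `f` so that it maps `c` to `c'`
  obtain ⟨k, hk1, hk2, hkc, hkd⟩ : ∃ k : Equiv.Perm GolayPt, t.image k = t' ∧ u.image k = u' ∧ k c = c' ∧ k d = d' := by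
    have h7 : f c ∈ ({c', d'} : Finset GolayPt) := by rw [← hfcd]; simp
    have h8 : f d ∈ ({c', d'} : Finset GolayPt) := by rw [← hfcd]; simp
    rw [Finset.mem_insert, Finset.mem_singleton] at h7 h8
    have h9 : f c ≠ f d := fun h => hcd (f.injective h)
    rcases h7 with h7 | h7
    · have h8' : f d = d' := by
        rcases h8 with h8 | h8
        · exact absurd (h7.trans h8.symm) h9
        · exact h8
      exact ⟨f, hf1, hf2, h7, h8'⟩
    · have h8' : f d = c' := by
        rcases h8 with h8 | h8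
        · exact h8
        · exact absurd (h7.trans h8.symm) h9
      have hc'u : c' ∈ u' := by
        have : c' ∈ u' \ t' := by rw [hcdu']; simp
        exact (Finset.mem_sdiff.1 this).1
      have hd'u : d' ∈ u' := by
        have : d' ∈ u' \ t' := by rw [hcdu']; simp
        exact (Finset.mem_sdiff.1 this).1
      refine ⟨Equiv.swap c' d' * f, ?_, ?_, ?_, ?_⟩
      · rw [image_mul, hf1]
        conv_rhs => rw [← Finset.image_id (s := t')]
        apply Finset.image_congr
        intro x hx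
        have h10 : x ≠ c' := by rintro rfl; exact hct' hx
        have h11 : x ≠ d' := by rintro rfl; exact hdt' hx
        exact Equiv.swap_apply_of_ne_of_ne h10 h11
      · rw [image_mul, hf2]
        apply Finset.eq_of_subset_of_card_le
        · intro y hy
          obtain ⟨x, hx, rfl⟩ := Finset.mem_image.1 hy
          by_cases e1 : x = c'
          · rw [e1, Equiv.swap_apply_left]; exact hd'u
          · by_cases e2 : x = d'
            · rw [e2, Equiv.swap_apply_right]; exact hc'u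
            · rw [Equiv.swap_apply_of_ne_of_ne e1 e2]; exact hx
        · rw [H32.Octad.card_image]
      · rw [Equiv.Perm.mul_apply, h7, Equiv.swap_apply_right]
      · rw [Equiv.Perm.mul_apply, h8', Equiv.swap_apply_left]
  -- apply the extension lemma
  have htu : t ∪ u = insert d (t ∪ {c}) := by
    ext p
    have := Finset.ext_iff.1 hcdu p
    rw [Finset.mem_sdiff, Finset.mem_insert, Finset.mem_singleton] at this
    rw [Finset.mem_union, Finset.mem_insert, Finset.mem_union, Finset.mem_singleton]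
    constructor
    · rintro (h | h)
      · exact Or.inr (Or.inl h)
      · by_cases hp : p ∈ t
        · exact Or.inr (Or.inl hp)
        · rcases this.1 ⟨h, hp⟩ with h | h
          · exact Or.inr (Or.inr h)
          · exact Or.inl h
    · rintro (h | h | h)
      · exact Or.inr (this.2 (Or.inr h)).1
      · exact Or.inl h
      · exact Or.inr (this.2 (Or.inl h)).1
  have hA : (t ∪ {c}).card = 5 := by
    rw [Finset.card_union_of_disjoint (Finset.disjoint_singleton_right.2 hct), ht4, Finset.card_singleton]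
  obtain ⟨g, hg, hgk, hgd⟩ := ext51 k ho ho' hA hoc (by
    rw [Finset.image_union, hk1, Finset.image_singleton, hkc]; exact hoc') hod hod'
  have hall : ∀ a ∈ t ∪ u, g a = k a := by
    intro a ha
    rw [htu, Finset.mem_insert] at ha
    rcases ha with rfl | ha
    · rw [hgd, hkd]
    · exact hgk a ha
  refine ⟨g, hg, finish hS hT hS' hT' ht hu ht' hu' hg ?_ ?_⟩
  · rw [image_eq_of_agree hall Finset.subset_union_left, hk1]
  · rw [image_eq_of_agree hall Finset.subset_union_right, hk2]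

/-- invariance of a relation under permutations -/
def Inv (P : Fam → Finset GolayPt → Prop) : Prop :=
  ∀ (f : Equiv.Perm GolayPt) (S : Fam) (u : Finset GolayPt), P S u → P (f • S) (u.image f)

theorem inv3 : Inv P3 := by
  rintro f S u ⟨t, ht, h⟩
  exact ⟨t.image f, mem_smul_fam.2 ⟨t, ht, rfl⟩, by rw [← H32.Octad.image_inter, H32.Octad.card_image, h]⟩

theorem inv22 : Inv P22 := by
  rintro f S u ⟨t, ht, h, t', ht', hne, h'⟩
  exact ⟨t.image f, mem_smul_fam.2 ⟨t, ht, rfl⟩, by rw [← H32.Octad.image_inter, H32.Octad.card_image, h],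
    t'.image f, mem_smul_fam.2 ⟨t', ht', rfl⟩, fun h => hne (H32.Octad.image_injective f h),
    by rw [← H32.Octad.image_inter, H32.Octad.card_image, h']⟩

theorem inv211 : Inv P211 := by
  rintro f S u ⟨t, ht, h, h'⟩
  refine ⟨t.image f, mem_smul_fam.2 ⟨t, ht, rfl⟩, by rw [← H32.Octad.image_inter, H32.Octad.card_image, h], ?_⟩
  intro t' ht' hne
  obtain ⟨v, hv, rfl⟩ := mem_smul_fam.1 ht'
  rw [← H32.Octad.image_inter, H32.Octad.card_image]
  exact h' v hv (by rintro rfl; exact hne rfl)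

theorem Inv.iff {P : Fam → Finset GolayPt → Prop} (h : Inv P) (f : Equiv.Perm GolayPt) (S : Fam)
    (u : Finset GolayPt) : P (f • S) (u.image f) ↔ P S u := by
  refine ⟨fun h' => ?_, h f S u⟩
  have := h f⁻¹ _ _ h'
  rwa [inv_smul_smul, image_inv rfl] at this

theorem ty_smul {P : Fam → Finset GolayPt → Prop} (h : Inv P) (f : Equiv.Perm GolayPt) (S T : Fam) :
    Ty P (f • S) (f • T) ↔ Ty P S T := by
  constructor
  · rintro ⟨u, hu, h'⟩
    obtain ⟨v, hv, rfl⟩ := mem_smul_fam.1 hu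
    exact ⟨v, hv, (h.iff f S v).1 h'⟩
  · rintro ⟨u, hu, h'⟩
    exact ⟨u.image f, mem_smul_fam.2 ⟨u, hu, rfl⟩, h f S u h'⟩

theorem card_filter_smul {P : Fam → Finset GolayPt → Prop} (h : Inv P) (f : Equiv.Perm GolayPt) (S T : Fam) :
    ((f • T).filter (P (f • S))).card = (T.filter (P S)).card := by
  have : (f • T).filter (P (f • S)) = (T.filter (P S)).image fun t => t.image f := by
    ext v
    rw [Finset.mem_filter, Finset.mem_image]
    constructor
    · rintro ⟨hv, hP⟩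
      obtain ⟨w, hw, rfl⟩ := mem_smul_fam.1 hv
      exact ⟨w, Finset.mem_filter.2 ⟨hw, (h.iff f S w).1 hP⟩, rfl⟩
    · rintro ⟨w, hw, rfl⟩
      rw [Finset.mem_filter] at hw
      exact ⟨mem_smul_fam.2 ⟨w, hw.1, rfl⟩, h f S w hw.2⟩
  rw [this, Finset.card_image_of_injective _ (H32.Octad.image_injective f)]

/-- counting sextets in a given relation to a fixed sextet -/
theorem count_type {P : Fam → Finset GolayPt → Prop} (hinv : Inv P)
    (htrans : ∀ {S T S' T' : Fam}, S ∈ sextets → T ∈ sextets → S' ∈ sextets → T' ∈ sextets → Ty P S T →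
      Ty P S' T' → ∃ f ∈ M24, f • S = S' ∧ f • T = T')
    (P' : ℕ → Bool) (hP' : ∀ n < 2 ^ 24, P (fam S0L) (fs n) ↔ P' n = true) {T0L : List ℕ}
    (hT0 : okSx T0L = true) {c N : ℕ} (hc : (T0L.filter P').length = c) (hc0 : 0 < c)
    (hN : cntK P' 4 (bits 0xffffff) 0 = c * N) {S : Fam} (hS : S ∈ sextets) :
    {T | T ∈ sextets ∧ Ty P S T}.ncard = N := by
  -- reduce to the standard sextet
  obtain ⟨f, hf, hfS⟩ := trans_sextets hS (fam_mem S0L_ok)
  have hred : {T | T ∈ sextets ∧ Ty P S T}.ncard = {T | T ∈ sextets ∧ Ty P (fam S0L) T}.ncard := by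
    have : {T | T ∈ sextets ∧ Ty P (fam S0L) T} = (fun T : Fam => f • T) '' {T | T ∈ sextets ∧ Ty P S T} := by
      ext T
      constructor
      · rintro ⟨h1, h2⟩
        refine ⟨f⁻¹ • T, ⟨smul_sextet (M24.inv_mem hf) h1, ?_⟩, smul_inv_smul f T⟩
        rw [← ty_smul hinv f, hfS, smul_inv_smul]
        exact h2
      · rintro ⟨T, ⟨h1, h2⟩, rfl⟩
        exact ⟨smul_sextet hf h1, by rw [← hfS]; exact (ty_smul hinv f S T).2 h2⟩
    rw [this, Set.ncard_image_of_injective _ (MulAction.injective f)]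
  rw [hred]
  -- masks of the list
  have hok := hT0
  unfold okSx at hok
  simp only [Bool.and_eq_true, List.all_eq_true, decide_eq_true_eq, Nat.blt_eq, Nat.beq_eq] at hok
  have hlt : ∀ t ∈ T0L, t < 2 ^ 24 := fun t ht => lt_of_lt_of_le (hok.2.2.1 t ht).1 (by norm_num)
  -- the number of special tetrads in the standard partner
  have hstd : ((fam T0L).filter (P (fam S0L))).card = c := by
    have e1 : (fam T0L).filter (P (fam S0L)) = fam (T0L.filter P') := by
      ext v
      rw [Finset.mem_filter, mem_fam, mem_fam]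
      constructor
      · rintro ⟨⟨m, hm, rfl⟩, h⟩
        exact ⟨m, List.mem_filter.2 ⟨hm, (hP' m (hlt m hm)).1 h⟩, rfl⟩
      · rintro ⟨m, hm, rfl⟩
        rw [List.mem_filter] at hm
        exact ⟨⟨m, hm.1, rfl⟩, (hP' m (hlt m hm.1)).2 hm.2⟩
    rw [e1, fam, List.toFinset_card_of_nodup, List.length_map, hc]
    apply List.Nodup.map_on _ (hok.2.1.filter _)
    intro x hx y hy hxy
    exact fs_inj (hlt x (List.mem_filter.1 hx).1) (hlt y (List.mem_filter.1 hy).1) hxy
  have hty0 : Ty P (fam S0L) (fam T0L) := by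
    have : ((fam T0L).filter (P (fam S0L))).Nonempty := by rw [← Finset.card_pos, hstd]; exact hc0
    obtain ⟨v, hv⟩ := this
    rw [Finset.mem_filter] at hv
    exact ⟨v, hv.1, hv.2⟩
  -- double counting
  have hsum := sum_tetrads (P (fam S0L))
  have hval : ∀ T ∈ sextF, (T.filter (P (fam S0L))).card = if Ty P (fam S0L) T then c else 0 := by
    intro T hT
    rw [mem_sextF] at hT
    split_ifs with h
    · obtain ⟨g, hg, h1, h2⟩ := htrans (fam_mem S0L_ok) hT (fam_mem S0L_ok) (fam_mem hT0) h hty0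
      have h3 := card_filter_smul hinv g (fam S0L) T
      rw [h1, h2] at h3
      rw [← h3, hstd]
    · rw [Finset.card_eq_zero, Finset.filter_eq_empty_iff]
      intro v hv hPv
      exact h ⟨v, hv, hPv⟩
  rw [Finset.sum_congr rfl hval, ← Finset.sum_filter, Finset.sum_const, smul_eq_mul] at hsum
  have hleft : (((Finset.univ : Finset GolayPt).powersetCard 4).filter (P (fam S0L))).card = c * N := by
    rw [← hN, ← ncard_subsets, ← Set.ncard_coe_finset]
    refine congrArg Set.ncard ?_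
    ext u
    simp only [Finset.coe_filter, Finset.mem_powersetCard, Finset.subset_univ, true_and, Set.mem_setOf_eq]
    have h1 : u ⊆ fs 0xffffff := by
      intro p _
      rw [mem_fs]
      have : ∀ i < 24, Nat.testBit 0xffffff i = true := by decide +kernel
      exact this _ (idx_lt p)
    have h2 : P (fam S0L) u ↔ P' (msk u) = true := by
      rw [← hP' _ (msk_lt u), fs_msk]
    rw [h2]
    exact ⟨fun ⟨a, b⟩ => ⟨a, h1, b⟩, fun ⟨a, _, b⟩ => ⟨a, b⟩⟩
  rw [hleft, mul_comm c N] at hsum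
  have hN' := Nat.eq_of_mul_eq_mul_right hc0 hsum
  rw [hN', ← Set.ncard_coe_finset]
  refine congrArg Set.ncard ?_
  ext T
  simp only [Finset.coe_filter, mem_sextF, Set.mem_setOf_eq]

/-! Boolean versions for the standard sextet -/

def b3 (n : ℕ) : Bool := S0L.any fun t => Nat.beq (pop (t &&& n)) 3
def b22 (n : ℕ) : Bool := S0L.any fun t => Nat.beq (pop (t &&& n)) 2 &&
  S0L.any fun t' => !(Nat.beq t t') && Nat.beq (pop (t' &&& n)) 2
def b211 (n : ℕ) : Bool := S0L.any fun t => Nat.beq (pop (t &&& n)) 2 &&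
  S0L.all fun t' => Nat.beq t t' || !(Nat.beq (pop (t' &&& n)) 2)

theorem S0L_lt : ∀ t ∈ S0L, t < 2 ^ 24 := by decide +kernel

theorem card_inter_fs {t n : ℕ} (ht : t ∈ S0L) : (fs t ∩ fs n).card = pop (t &&& n) := by
  rw [fs_inter, card_fs (lt_of_le_of_lt Nat.and_le_left (S0L_lt t ht))]

theorem fs_ne_iff {t t' : ℕ} (ht : t ∈ S0L) (ht' : t' ∈ S0L) : fs t ≠ fs t' ↔ t ≠ t' :=
  ⟨fun h h' => h (by rw [h']), fun h h' => h (fs_inj (S0L_lt t ht) (S0L_lt t' ht') h')⟩

theorem b3_iff (n : ℕ) (_ : n < 2 ^ 24) : P3 (fam S0L) (fs n) ↔ b3 n = true := by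
  unfold P3 b3
  simp only [List.any_eq_true, Nat.beq_eq]
  constructor
  · rintro ⟨t, ht, h⟩
    obtain ⟨m, hm, rfl⟩ := mem_fam.1 ht
    rw [card_inter_fs hm] at h
    exact ⟨m, hm, h⟩
  · rintro ⟨m, hm, h⟩
    exact ⟨fs m, mem_fam.2 ⟨m, hm, rfl⟩, by rw [card_inter_fs hm]; exact h⟩

theorem b22_iff (n : ℕ) (_ : n < 2 ^ 24) : P22 (fam S0L) (fs n) ↔ b22 n = true := by
  unfold P22 b22
  simp only [List.any_eq_true, Nat.beq_eq, Bool.and_eq_true, Bool.not_eq_true']
  constructor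
  · rintro ⟨t, ht, h, t', ht', hne, h'⟩
    obtain ⟨m, hm, rfl⟩ := mem_fam.1 ht
    obtain ⟨m', hm', rfl⟩ := mem_fam.1 ht'
    rw [card_inter_fs hm] at h
    rw [card_inter_fs hm'] at h'
    refine ⟨m, hm, h, m', hm', ?_, h'⟩
    rw [← Bool.not_eq_true, Nat.beq_eq]
    exact (fs_ne_iff hm hm').1 hne
  · rintro ⟨m, hm, h, m', hm', hne, h'⟩
    refine ⟨fs m, mem_fam.2 ⟨m, hm, rfl⟩, by rw [card_inter_fs hm]; exact h,
      fs m', mem_fam.2 ⟨m', hm', rfl⟩, ?_, by rw [card_inter_fs hm']; exact h'⟩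
    rw [← Bool.not_eq_true, Nat.beq_eq] at hne
    exact (fs_ne_iff hm hm').2 hne

theorem b211_iff (n : ℕ) (_ : n < 2 ^ 24) : P211 (fam S0L) (fs n) ↔ b211 n = true := by
  unfold P211 b211
  simp only [List.any_eq_true, List.all_eq_true, Nat.beq_eq, Bool.and_eq_true, Bool.or_eq_true,
    Bool.not_eq_true']
  constructor
  · rintro ⟨t, ht, h, h'⟩
    obtain ⟨m, hm, rfl⟩ := mem_fam.1 ht
    rw [card_inter_fs hm] at h
    refine ⟨m, hm, h, ?_⟩
    intro m' hm'
    by_cases e : m = m'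
    · exact Or.inl e
    · right
      rw [← Bool.not_eq_true, Nat.beq_eq, ← card_inter_fs hm']
      exact h' (fs m') (mem_fam.2 ⟨m', hm', rfl⟩) ((fs_ne_iff hm hm').2 e)
  · rintro ⟨m, hm, h, h'⟩
    refine ⟨fs m, mem_fam.2 ⟨m, hm, rfl⟩, by rw [card_inter_fs hm]; exact h, ?_⟩
    intro t' ht' hne
    obtain ⟨m', hm', rfl⟩ := mem_fam.1 ht'
    rw [card_inter_fs hm', Ne, ← Nat.beq_eq, Bool.not_eq_true]
    exact (h' m' hm').resolve_left ((fs_ne_iff hm hm').1 hne)

/-- standard partners -/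
def T22L : List ℕ := [0x2b, 0x48c00, 0x101300, 0x210050, 0x482080, 0x824004]
def T3L : List ℕ := [0xf, 0x1490, 0x98100, 0x342000, 0x400a40, 0x824020]
def T211L : List ℕ := [0x1b, 0x1484, 0xe200, 0x210060, 0x460100, 0x980800]

theorem T22L_ok : okSx T22L = true := by decide +kernel
theorem T3L_ok : okSx T3L = true := by decide +kernel
theorem T211L_ok : okSx T211L = true := by decide +kernel

theorem cnt22 : cntK b22 4 (bits 0xffffff) 0 = 6 * 90 := by decide +kernel
theorem cnt3 : cntK b3 4 (bits 0xffffff) 0 = 2 * 240 := by decide +kernel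
theorem cnt211 : cntK b211 4 (bits 0xffffff) 0 = 4 * 1440 := by decide +kernel

theorem ncard22 {S : Fam} (hS : S ∈ sextets) : {T | T ∈ sextets ∧ Ty P22 S T}.ncard = 90 :=
  count_type inv22 trans22 b22 b22_iff T22L_ok (by decide +kernel) (by norm_num) cnt22 hS

theorem ncard3 {S : Fam} (hS : S ∈ sextets) : {T | T ∈ sextets ∧ Ty P3 S T}.ncard = 240 :=
  count_type inv3 trans3 b3 b3_iff T3L_ok (by decide +kernel) (by norm_num) cnt3 hS

theorem ncard211 {S : Fam} (hS : S ∈ sextets) : {T | T ∈ sextets ∧ Ty P211 S T}.ncard = 1440 :=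
  count_type inv211 trans211 b211 b211_iff T211L_ok (by decide +kernel) (by norm_num) cnt211 hS

/-- a standard partner is not of another type -/
theorem not_ty {P : Fam → Finset GolayPt → Prop} {P' : ℕ → Bool}
    (hP' : ∀ n < 2 ^ 24, P (fam S0L) (fs n) ↔ P' n = true) {T0L : List ℕ} (hlt : ∀ t ∈ T0L, t < 2 ^ 24)
    (h : T0L.any P' = false) : ¬ Ty P (fam S0L) (fam T0L) := by
  rintro ⟨u, hu, hPu⟩
  obtain ⟨m, hm, rfl⟩ := mem_fam.1 hu
  rw [hP' m (hlt m hm)] at hPu
  rw [← Bool.not_eq_true, List.any_eq_true] at h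
  exact h ⟨m, hm, hPu⟩

/-- types exclude each other -/
theorem excl {P Q : Fam → Finset GolayPt → Prop} (hQ : Inv Q)
    (htrans : ∀ {S T S' T' : Fam}, S ∈ sextets → T ∈ sextets → S' ∈ sextets → T' ∈ sextets → Ty P S T →
      Ty P S' T' → ∃ f ∈ M24, f • S = S' ∧ f • T = T')
    {T0L : List ℕ} (hT0 : okSx T0L = true) (h0 : Ty P (fam S0L) (fam T0L))
    (hn : ¬ Ty Q (fam S0L) (fam T0L)) {S T : Fam} (hS : S ∈ sextets) (hT : T ∈ sextets) (hP : Ty P S T) :
    ¬ Ty Q S T := by
  obtain ⟨f, _, h1, h2⟩ := htrans hS hT (fam_mem S0L_ok) (fam_mem hT0) hP h0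
  intro h
  apply hn
  rw [← h1, ← h2]
  exact (ty_smul hQ f S T).2 h

theorem ty_std {P : Fam → Finset GolayPt → Prop} {P' : ℕ → Bool}
    (hP' : ∀ n < 2 ^ 24, P (fam S0L) (fs n) ↔ P' n = true) {T0L : List ℕ} (hlt : ∀ t ∈ T0L, t < 2 ^ 24)
    (h : T0L.any P' = true) : Ty P (fam S0L) (fam T0L) := by
  rw [List.any_eq_true] at h
  obtain ⟨m, hm, h⟩ := h
  exact ⟨fs m, mem_fam.2 ⟨m, hm, rfl⟩, (hP' m (hlt m hm)).2 h⟩

theorem excl22 {S T : Fam} (hS : S ∈ sextets) (hT : T ∈ sextets) (h : Ty P22 S T) :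
    ¬ Ty P3 S T ∧ ¬ Ty P211 S T :=
  ⟨excl inv3 trans22 T22L_ok (ty_std b22_iff (by decide +kernel) (by decide +kernel))
    (not_ty b3_iff (by decide +kernel) (by decide +kernel)) hS hT h,
   excl inv211 trans22 T22L_ok (ty_std b22_iff (by decide +kernel) (by decide +kernel))
    (not_ty b211_iff (by decide +kernel) (by decide +kernel)) hS hT h⟩

theorem excl3 {S T : Fam} (hS : S ∈ sextets) (hT : T ∈ sextets) (h : Ty P3 S T) :
    ¬ Ty P211 S T :=
  excl inv211 trans3 T3L_ok (ty_std b3_iff (by decide +kernel) (by decide +kernel))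
    (not_ty b211_iff (by decide +kernel) (by decide +kernel)) hS hT h

theorem excl_self {S : Fam} (hS : S ∈ sextets) : ¬ Ty P22 S S ∧ ¬ Ty P3 S S ∧ ¬ Ty P211 S S := by
  have key : ∀ k, k ≠ 0 → k ≠ 4 → ∀ u ∈ S, ∀ t ∈ S, (t ∩ u).card ≠ k := by
    intro k h0 h4 u hu t ht h
    by_cases e : t = u
    · rw [e, Finset.inter_self, hS.2.1 u hu] at h; exact h4 h.symm
    · rw [Finset.disjoint_iff_inter_eq_empty.1 (disjoint_of_mem hS ht hu e), Finset.card_empty] at h
      exact h0 h.symm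
  refine ⟨?_, ?_, ?_⟩
  · rintro ⟨u, hu, t, ht, h, _⟩
    exact key 2 (by norm_num) (by norm_num) u hu t ht h
  · rintro ⟨u, hu, t, ht, h⟩
    exact key 3 (by norm_num) (by norm_num) u hu t ht h
  · rintro ⟨u, hu, t, ht, h, _⟩
    exact key 2 (by norm_num) (by norm_num) u hu t ht h

end H32.SextetOrb
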