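import Cfsg.Agent.Lib.H32.M24Ext

/-!
Duads and triads: counts and transitivity of the setwise stabilisers.
-/

set_option autoImplicit false
set_option linter.constructorNameAsVariable false

namespace H32.Triads

open Cfsg H8.GolayCode H8.GolayCount H8.GolayBasic H8.M24Mem H8.M24Trans H32.M24Kit H32.Octad H32.M24Ext
open scoped Pointwise Classical

/-- number of `k`-subsets with a given meet with a given set -/
theorem ncard_meet_subsets {s : Finset GolayPt} {m : ℕ} (hm : m < 2 ^ 24) (h : s.card = pop m) (h5 : pop m ≤ 5)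
    (k j : ℕ) : {t : Finset GolayPt | t.card = k ∧ (s ∩ t).card = j}.ncard =
      cntK (fun n => Nat.beq (pop (m &&& n)) j) k (bits 0xffffff) 0 := by
  obtain ⟨g, hg, hgs⟩ := trans_subsets (s := s) (t := fs m) (by rw [h, card_fs hm]) (by rw [h]; exact h5)
  rw [← ncard_subsets, ncard_transport g (fun t => t.card = k ∧ (s ∩ t).card = j)
    (fun t => t.card = k ∧ (fs m ∩ t).card = j)]
  · refine congrArg Set.ncard ?_
    ext t
    simp only [Set.mem_setOf_eq]
    have h1 : t ⊆ fs 0xffffff := by
      intro p _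
      rw [mem_fs]
      have : ∀ i < 24, Nat.testBit 0xffffff i = true := by decide +kernel
      exact this _ (idx_lt p)
    rw [card_eq_pop (fs m ∩ t), msk_inter, msk_fs hm, Nat.beq_eq]
    tauto
  · intro t
    rw [card_image, ← hgs, ← image_inter, card_image]

/-- triads disjoint from `T` inside a common octad with `T` -/
def Inn (T U : Finset GolayPt) : Prop := ∃ o ∈ octads, T ∪ U ⊆ o

theorem inn_image {g : Equiv.Perm GolayPt} (hg : g ∈ M24) {T U : Finset GolayPt} :
    Inn (T.image g) (U.image g) ↔ Inn T U := by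
  constructor
  · rintro ⟨o, ho, h⟩
    refine ⟨o.image ⇑(g⁻¹), (image_mem_octads (M24.inv_mem hg)).2 ho, ?_⟩
    have := Finset.image_subset_image (f := ⇑(g⁻¹)) h
    rw [← Finset.image_union, ← image_mul] at this
    simpa using this
  · rintro ⟨o, ho, h⟩
    refine ⟨o.image g, (image_mem_octads hg).2 ho, ?_⟩
    rw [← Finset.image_union]
    exact Finset.image_subset_image h

theorem card_union6 {T U : Finset GolayPt} (hT : T.card = 3) (hU : U.card = 3) (h : Disjoint T U) :
    (T ∪ U).card = 6 := by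
  rw [Finset.card_union_of_disjoint h, hT, hU]

/-- transitivity on pairs of disjoint triads inside an octad -/
theorem trans_inn {T U T' U' : Finset GolayPt} (hT : T.card = 3) (hU : U.card = 3) (hT' : T'.card = 3)
    (hU' : U'.card = 3) (h : Disjoint T U) (h' : Disjoint T' U') (hi : Inn T U) (hi' : Inn T' U') :
    ∃ g ∈ M24, T.image g = T' ∧ U.image g = U' := by
  obtain ⟨o, ho, hs⟩ := hi
  obtain ⟨o', ho', hs'⟩ := hi'
  obtain ⟨f, hf1, hf2⟩ := exists_perm2 (s := T) (t := U) (s' := T') (t' := U') (hT.trans hT'.symm)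
    (hU.trans hU'.symm) (by
      rw [Finset.disjoint_iff_inter_eq_empty.1 h, Finset.disjoint_iff_inter_eq_empty.1 h'])
  obtain ⟨g, hg, hgf⟩ := ext6 f ho ho' (card_union6 hT hU h) hs (by
    rw [Finset.image_union, hf1, hf2]; exact hs')
  refine ⟨g, hg, ?_, ?_⟩
  · rw [image_eq_of_agree hgf Finset.subset_union_left, hf1]
  · rw [image_eq_of_agree hgf Finset.subset_union_right, hf2]

/-- transitivity on pairs of disjoint triads not inside an octad -/
theorem trans_out {T U T' U' : Finset GolayPt} (hT : T.card = 3) (hU : U.card = 3) (hT' : T'.card = 3)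
    (hU' : U'.card = 3) (h : Disjoint T U) (h' : Disjoint T' U') (hi : ¬ Inn T U) (hi' : ¬ Inn T' U') :
    ∃ g ∈ M24, T.image g = T' ∧ U.image g = U' := by
  obtain ⟨f, hf1, hf2⟩ := exists_perm2 (s := T) (t := U) (s' := T') (t' := U') (hT.trans hT'.symm)
    (hU.trans hU'.symm) (by
      rw [Finset.disjoint_iff_inter_eq_empty.1 h, Finset.disjoint_iff_inter_eq_empty.1 h'])
  obtain ⟨z, hz⟩ : U.Nonempty := by rw [← Finset.card_pos, hU]; norm_num
  have hzT : z ∉ T := fun hzT => Finset.disjoint_left.1 h hzT hz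
  have hA : ((T ∪ U).erase z).card = 5 := by
    rw [Finset.card_erase_of_mem (Finset.mem_union_right _ hz), card_union6 hT hU h]
  obtain ⟨o, ho, hAo⟩ := exists_octad hA
  obtain ⟨o', ho', hAo'⟩ := exists_octad (A := ((T ∪ U).erase z).image f) (by rw [card_image]; exact hA)
  have hzo : z ∉ o := by
    intro hzo
    apply hi
    refine ⟨o, ho, ?_⟩
    intro p hp
    by_cases hpz : p = z
    · rw [hpz]; exact hzo
    · exact hAo (Finset.mem_erase.2 ⟨hpz, hp⟩)
  have hzo' : f z ∉ o' := by
    intro hzo'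
    apply hi'
    refine ⟨o', ho', ?_⟩
    rw [← hf1, ← hf2, ← Finset.image_union]
    intro p hp
    obtain ⟨q, hq, rfl⟩ := Finset.mem_image.1 hp
    by_cases hqz : q = z
    · rw [hqz]; exact hzo'
    · exact hAo' (Finset.mem_image_of_mem _ (Finset.mem_erase.2 ⟨hqz, hq⟩))
  obtain ⟨g, hg, hgf, hgz⟩ := ext51 f ho ho' hA hAo hAo' hzo hzo'
  have hall : ∀ a ∈ T ∪ U, g a = f a := by
    intro a ha
    by_cases haz : a = z
    · rw [haz]; exact hgz
    · exact hgf a (Finset.mem_erase.2 ⟨haz, ha⟩)
  refine ⟨g, hg, ?_, ?_⟩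
  · rw [image_eq_of_agree hall Finset.subset_union_left, hf1]
  · rw [image_eq_of_agree hall Finset.subset_union_right, hf2]

theorem ncard_disj {T : Finset GolayPt} (hT : T.card = 3) :
    {U : Finset GolayPt | U.card = 3 ∧ Disjoint T U}.ncard = 1330 := by
  have := ncard_meet_subsets (s := T) (m := 7) (by norm_num) (by rw [hT]; decide +kernel) (by decide +kernel) 3 0
  have h2 : cntK (fun n => Nat.beq (pop (7 &&& n)) 0) 3 (bits 0xffffff) 0 = 1330 := by decide +kernel
  rw [h2] at this
  rw [← this]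
  refine congrArg Set.ncard ?_
  ext U
  simp only [Set.mem_setOf_eq, Finset.disjoint_iff_inter_eq_empty, Finset.card_eq_zero]

theorem ncard_inn {T : Finset GolayPt} (hT : T.card = 3) :
    {U : Finset GolayPt | U.card = 3 ∧ Disjoint T U ∧ Inn T U}.ncard = 210 := by
  have hlam := H9.Steiner24.lam3 card_pt octads_steiner T hT
  have h1 : {U : Finset GolayPt | U.card = 3 ∧ Disjoint T U ∧ Inn T U} =
      (((Finset.univ.filter fun o => o ∈ octads ∧ T ⊆ o).biUnion fun o => (o \ T).powersetCard 3 :
        Finset (Finset GolayPt)) : Set (Finset GolayPt)) := by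
    ext U
    simp only [Set.mem_setOf_eq, Finset.coe_biUnion, Set.mem_iUnion, Finset.mem_coe, Finset.mem_filter,
      Finset.mem_univ, true_and, Finset.mem_powersetCard, exists_prop]
    constructor
    · rintro ⟨h1, h2, o, ho, h3⟩
      refine ⟨o, ⟨ho, Finset.subset_union_left.trans h3⟩, ?_, h1⟩
      rw [Finset.subset_sdiff]
      exact ⟨Finset.subset_union_right.trans h3, h2.symm⟩
    · rintro ⟨o, ⟨ho, h3⟩, h4, h5⟩
      rw [Finset.subset_sdiff] at h4
      exact ⟨h5, h4.2.symm, o, ho, Finset.union_subset h3 h4.1⟩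
  rw [h1, Set.ncard_coe_finset, Finset.card_biUnion]
  · rw [Finset.sum_const_nat (m := 10)]
    · have : (Finset.univ.filter fun o => o ∈ octads ∧ T ⊆ o).card = 21 := by
        rw [← hlam]
        refine congrArg Finset.card ?_
        ext o; simp [H9.Steiner.blk]
      rw [this]
    · intro o ho
      rw [Finset.mem_filter] at ho
      rw [Finset.card_powersetCard, Finset.card_sdiff_of_subset ho.2.2, hT, show o.card = 8 from ho.2.1.2]
      decide
  · intro o ho o' ho' hne
    rw [Finset.mem_coe, Finset.mem_filter] at ho ho'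
    rw [Function.onFun, Finset.disjoint_left]
    intro U hU hU'
    rw [Finset.mem_powersetCard, Finset.subset_sdiff] at hU hU'
    apply hne
    apply octad_unique ho.2.1 ho'.2.1 (u := T ∪ U)
    · rw [card_union6 hT hU.2 hU.1.2.symm]; norm_num
    · exact Finset.union_subset ho.2.2 hU.1.1
    · exact Finset.union_subset ho'.2.2 hU'.1.1

theorem ncard_out {T : Finset GolayPt} (hT : T.card = 3) :
    {U : Finset GolayPt | U.card = 3 ∧ Disjoint T U ∧ ¬ Inn T U}.ncard = 1120 := by
  have h1 := ncard_disj hT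
  have h2 := ncard_inn hT
  have h3 : {U : Finset GolayPt | U.card = 3 ∧ Disjoint T U} =
      {U : Finset GolayPt | U.card = 3 ∧ Disjoint T U ∧ Inn T U} ∪
        {U : Finset GolayPt | U.card = 3 ∧ Disjoint T U ∧ ¬ Inn T U} := by
    ext U
    simp only [Set.mem_setOf_eq, Set.mem_union]
    tauto
  rw [h3, Set.ncard_union_eq, h2] at h1
  · omega
  · rw [Set.disjoint_left]
    rintro U ⟨_, _, h⟩ ⟨_, _, h'⟩
    exact h' h

end H32.Triads
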